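import Cfsg.Agent.TwoGroups.SelfCentralEight.EightFinal

/-! Sectional rank at most four with a self-centralising elementary abelian subgroup of order eight. -/

set_option autoImplicit false
set_option linter.unusedSectionVars false

namespace Cfsg.Agent.TwoGroups.SelfCentralEight

open NormalRankTwo

variable {S : Type*} [Group S] [Finite S]

theorem mem_of_two {G : Subgroup S} {D : Subgroup S} (hDG : D ≤ G) (hc : Nat.card G = 2 * Nat.card D) {a : S}
    (ha : a ∈ G) (haD : a ∉ D) {x : S} (hx : x ∈ G) : x ∈ D ∨ a * x ∈ D := by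
  have hi : (D.subgroupOf G).index = 2 := by
    have h := (D.subgroupOf G).card_mul_index
    rw [Nat.card_congr (Subgroup.subgroupOfEquivOfLe hDG).toEquiv, hc, mul_comm 2] at h
    exact Nat.eq_of_mul_eq_mul_left Nat.card_pos h
  by_cases hxD : x ∈ D
  · exact Or.inl hxD
  · exact Or.inr (Subgroup.mem_subgroupOf.1 ((Subgroup.mul_mem_iff_of_index_two hi
      (a := (⟨a, ha⟩ : G)) (b := ⟨x, hx⟩)).2 (iff_of_false haD hxD)))

section
variable {E : Subgroup S} [E.Normal] (hE : Elem E)
include hE

theorem self_sixteen (h2 : IsPGroup 2 S) (hE16 : Nat.card E = 16) {a : S} (ha : a * a = 1)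
    (hF : ∀ C : Subgroup S, (∀ e ∈ C, e ∈ E ∧ a * e * a = e) → Nat.card C ≤ 4)
    (hP : ∀ x, (∀ e ∈ E, e * x = x * e) → a * x = x * a → x ∈ E) :
    ∀ x, (∀ e ∈ E, e * x = x * e) → x ∈ E := by
  intro x hx
  by_contra hxE
  set K := Subgroup.centralizer (E : Set S)
  have hK : K.Normal := inferInstance
  have hEK : E < K := lt_of_le_of_ne (fun e he => Subgroup.mem_centralizer_iff.2 fun d hd => hE.comm hd he)
    fun e => hxE (by rw [e]; exact Subgroup.mem_centralizer_iff.2 hx)
  have hconj : ∀ {N : Subgroup S}, N.Normal → ∀ n ∈ N, a * n * a ∈ N := fun {N} hN n hn => by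
    have := hN.conj_mem n hn a
    rwa [invol_inv ha] at this
  obtain ⟨y, hy, hyE, hyk⟩ := exists_fixed_coset h2 ha hEK (fun l _ n hn => (inferInstance : E.Normal).conj_mem n hn l)
    (hconj inferInstance) (hconj hK)
  obtain ⟨C, hC, -, I, hIC, hI, hcard⟩ := card_le_fixed_sq hE ha (hconj inferInstance)
  have hC4 := hF C fun e he => (hC e).1 he
  have hIC' : I = C := by
    refine Subgroup.eq_of_le_of_card_ge hIC ?_
    by_contra hlt
    push Not at hlt
    rw [hE16] at hcard
    have := Nat.mul_le_mul (show Nat.card I ≤ 3 by omega) hC4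
    omega
  obtain ⟨e, he, hek⟩ := (hI _).1 (hIC' ▸ (hC _).2 ⟨hyk, fix_of_inverted hE ha hyk⟩ : com a y ∈ I)
  refine hyE ((E.mul_mem_cancel_right he).1 (hP (y * e) (fun d hd => ?_) ((com_one_iff ha).1 ?_)))
  · exact ((show Commute d y from Subgroup.mem_centralizer_iff.1 hy d hd).mul_right (hE.comm hd he)).eq
  · rw [com_mul hE ha hyk he, hek, hE.mul_self hyk]

/-- Correcting by an element of `E` when the commutators cover the fixed points. -/
theorem adjust {a : S} (ha : a * a = 1) (hcov : ∀ k ∈ E, a * k * a = k → ∃ e ∈ E, com a e = k) {x : S}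
    (hk : com a x ∈ E) : ∃ e ∈ E, a * (x * e) = x * e * a := by
  obtain ⟨e, he, hek⟩ := hcov _ hk (fix_of_inverted hE ha hk)
  exact ⟨e, he, (com_one_iff ha).1 (by rw [com_mul hE ha hk he, hek, hE.mul_self hk])⟩

end

variable {A : Subgroup S} (hA : Elem A) (hA8 : Nat.card A = 8) (hC : Subgroup.centralizer (A : Set S) = A)

set_option maxHeartbeats 4000000 in
/-- The main bound. -/
theorem section_le (h2 : IsPGroup 2 S) (hA : Elem A) (hA8 : Nat.card A = 8)
    (hC : Subgroup.centralizer (A : Set S) = A) (H : Subgroup S) {Q : Type*} [Group Q] (ψ : H →* Q)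
    (hψ : Function.Surjective ψ) (hQ : ∀ q : Q, q ^ 2 = 1) : Nat.card Q ≤ 16 := by
  classical
  haveI : Finite Q := Finite.of_surjective ψ hψ
  haveI : Fact (Nat.Prime 2) := ⟨Nat.prime_two⟩
  by_cases hsmall : ∀ D : Subgroup S, D.Normal → (∀ a ∈ D, ∀ b ∈ D, a * b = b * a) → (∀ a ∈ D, a ^ 2 = 1) →
      Nat.card D ≤ 4
  · exact section_card_le h2 hsmall H ψ hψ hQ
  have hpow : ∀ D : Subgroup S, ∃ k, Nat.card D = 2 ^ k := fun D => (h2.to_subgroup D).exists_card_eq
  have h8 : ∀ D : Subgroup S, 4 < Nat.card D → 8 ≤ Nat.card D := fun D h => by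
    obtain ⟨k, hk⟩ := hpow D
    rw [hk] at h ⊢
    exact Nat.pow_le_pow_right (show 0 < 2 by norm_num) (show 3 ≤ k from
      (Nat.pow_lt_pow_iff_right (show 1 < 2 by norm_num)).1 (show 2 ^ 2 < 2 ^ k by simpa using h))
  obtain ⟨E, hEn, hE, hE8, hmax⟩ : ∃ E : Subgroup S, E.Normal ∧ Elem E ∧ 8 ≤ Nat.card E ∧
      (Nat.card E = 8 → ∀ D : Subgroup S, D.Normal → Elem D → E ≤ D → D ≤ E) := by
    by_cases hbig : ∃ D : Subgroup S, D.Normal ∧ Elem D ∧ 8 < Nat.card D
    · obtain ⟨D, h1, h2', h3⟩ := hbig
      exact ⟨D, h1, h2', h3.le, fun e => absurd e h3.ne'⟩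
    · push Not at hsmall hbig
      obtain ⟨D, h1, h2', h3, h4⟩ := hsmall
      refine ⟨D, h1, ⟨h2', h3⟩, h8 D h4, fun e D' h5 h6 h7 => ?_⟩
      have := hbig D' h5 h6
      exact (Subgroup.eq_of_le_of_card_ge h7 (by omega)).ge
  haveI := hEn
  haveI : Group.IsNilpotent S := h2.isNilpotent
  have hEne : E ≠ ⊥ := fun e => by rw [e, Subgroup.card_bot] at hE8; omega
  obtain ⟨z, hz, hz1, hzc'⟩ := OddLocal.exists_ne_one_mem_center_of_normal E hEne
  have hzc : ∀ s : S, s * z * s⁻¹ = z := fun s => by
    rw [Subgroup.mem_center_iff.1 hzc' s, mul_inv_cancel_right]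
  have hinA : ∀ {x}, (∀ y ∈ A, y * x = x * y) → x ∈ A := fun {x} h => hC.le (Subgroup.mem_centralizer_iff.2 h)
  have hzA : z ∈ A := hinA fun y _ => Subgroup.mem_center_iff.1 hzc' y
  set F := E ⊓ A with hFdef
  have hzF : z ∈ F := ⟨hz, hzA⟩
  by_cases hAE : A ≤ E
  · have hEA : E ≤ A := fun e he => hinA fun y hy => hE.comm (hAE hy) he
    have hEq : E = A := le_antisymm hEA hAE
    exact self_eight_bound ψ hψ hQ h2 hE (hEq ▸ hA8) (by rw [hEq, hC])
  obtain ⟨a, haA, haE⟩ := Set.not_subset.1 hAE
  have haF : a ∉ F := fun h => haE h.1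
  have hFne : Nat.card F ≠ 1 := fun e => hz1 (by
    have := Subgroup.eq_bot_of_card_eq F e
    rw [this, Subgroup.mem_bot] at hzF; exact hzF)
  have hFlt : Nat.card F < 8 := by
    rw [← hA8]
    by_contra hge
    push Not at hge
    exact haF ((Subgroup.eq_of_le_of_card_ge (show F ≤ A from inf_le_right) hge) ▸ haA)
  have ha2 : a * a = 1 := hA.mul_self haA
  have hconjE : ∀ {c : S}, c * c = 1 → ∀ e ∈ E, c * e * c ∈ E := fun {c} hc e he => by
    have := hEn.conj_mem e he c
    rwa [invol_inv hc] at this
  have hcomm_fix : ∀ {c x : S}, c * c = 1 → c * x * c = x → c * x = x * c := fun {c x} hc h => by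
    calc c * x = c * x * (c * c) := by rw [hc, mul_one]
      _ = x * c := by rw [← mul_assoc, h]
  obtain ⟨k, hk⟩ := hpow F
  have hk3 : k = 1 ∨ k = 2 := by
    have : k < 3 := (Nat.pow_lt_pow_iff_right (show 1 < 2 by norm_num)).1 (show 2 ^ k < 2 ^ 3 by omega)
    have : k ≠ 0 := fun e => hFne (by rw [hk, e, pow_zero])
    omega
  -- fixed points of `a`
  obtain ⟨Fa, hFa, -, I, hIF, hI, hcard⟩ := card_le_fixed_sq hE ha2 (hconjE ha2)
  have hFle : F ≤ Fa := fun u hu => (hFa u).2 ⟨hu.1, by
    rw [hA.comm haA hu.2, mul_assoc, ha2, mul_one]⟩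
  have hbound : ∀ C : Subgroup S, (∀ e ∈ C, e ∈ E ∧ a * e * a = e) → Nat.card C ≤ Nat.card Fa := fun C h =>
    Subgroup.card_le_of_le fun e he => (hFa e).2 (h e he)
  have hcov : Nat.card E = 16 → Nat.card Fa = 4 → ∀ k ∈ E, a * k * a = k → ∃ e ∈ E, com a e = k := fun h16 h4 k hk hfix => by
    have : I = Fa := Subgroup.eq_of_le_of_card_ge hIF (by rw [h16, h4] at hcard; omega)
    exact (hI k).1 (this ▸ (hFa k).2 ⟨hk, hfix⟩)
  have hE_le : Nat.card Fa ≤ 4 → Nat.card E ≤ 16 := fun h => by
    rw [hcard]; exact le_trans (Nat.mul_le_mul ((Subgroup.card_le_of_le hIF).trans h) h) le_rfl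
  have hE16or8 : Nat.card Fa ≤ 4 → Nat.card E = 8 ∨ Nat.card E = 16 := fun h => by
    obtain ⟨j, hj⟩ := hpow E
    have := hE_le h
    have : j < 5 := (Nat.pow_lt_pow_iff_right (show 1 < 2 by norm_num)).1 (show 2 ^ j < 2 ^ 5 by omega)
    interval_cases j <;> omega
  have hFa4 : Nat.card Fa ≤ 4 → Nat.card Fa = 4 := fun h => by
    have h1 := Nat.mul_le_mul_right (Nat.card Fa) (Subgroup.card_le_of_le hIF)
    rw [← hcard] at h1
    obtain ⟨j, hj⟩ := hpow Fa
    have hj3 : j < 3 := (Nat.pow_lt_pow_iff_right (show 1 < 2 by norm_num)).1 (show 2 ^ j < 2 ^ 3 by omega)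
    interval_cases j <;> simp only [hj] at h1 <;> omega
  rcases hk3 with rfl | rfl
  · -- `F` of order two
    have hF2 : Nat.card F = 2 := by simpa using hk
    have hFz : ∀ u ∈ F, u = 1 ∨ u = z := fun u hu => by
      haveI := Fintype.ofFinite F
      by_contra hcon
      push Not at hcon
      have h3 : ({1, z, u} : Finset S).card = 3 := by
        rw [Finset.card_insert_of_notMem, Finset.card_insert_of_notMem, Finset.card_singleton]
        · simp [hcon.2.symm]
        · simp [hz1.symm, hcon.1.symm]
      have hle := Finset.card_le_card (show ({1, z, u} : Finset S) ⊆ (F : Set S).toFinset from fun w hw => by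
        simp only [Finset.mem_insert, Finset.mem_singleton] at hw
        rw [Set.mem_toFinset]
        rcases hw with rfl | rfl | rfl
        exacts [F.one_mem, hzF, hu])
      rw [Nat.card_eq_fintype_card] at hF2
      simp only [Set.toFinset_card, SetLike.coe_sort_coe] at hle
      omega
    -- a second involution
    let T : Subgroup S :=
      { carrier := {x | x ∈ F ∨ a * x ∈ F}
        one_mem' := Or.inl F.one_mem
        mul_mem' := by
          rintro x y (hx | hx) (hy | hy)
          · exact Or.inl (F.mul_mem hx hy)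
          · refine Or.inr ?_
            have := F.mul_mem hx hy
            rwa [← mul_assoc, ← hA.comm haA hx.2, mul_assoc] at this
          · exact Or.inr (by simpa [mul_assoc] using F.mul_mem hx hy)
          · refine Or.inl ?_
            have := F.mul_mem hx hy
            have hxA : x ∈ A := (A.mul_mem_cancel_left haA).1 hx.2
            rwa [hA.comm haA hxA, mul_assoc x a, ← mul_assoc a a, ha2, one_mul] at this
        inv_mem' := by
          rintro x (hx | hx)
          · exact Or.inl (F.inv_mem hx)
          · exact Or.inr (by rwa [hA.inv_eq ((A.mul_mem_cancel_left haA).1 hx.2)]) }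
    have hTA : T ≤ A := fun x hx => hx.elim (fun h => h.2) fun h => (A.mul_mem_cancel_left haA).1 h.2
    obtain ⟨b, hbA, hbT⟩ : ∃ b ∈ A, b ∉ T := by
      by_contra hcon
      push Not at hcon
      have h1 : Nat.card A ≤ Nat.card T := Subgroup.card_le_of_le hcon
      have h2' : Nat.card T ≤ Nat.card (Bool × F) := by
        refine Nat.card_le_card_of_surjective (fun w : Bool × F =>
          (⟨(if w.1 then a else 1) * w.2.1, by
            cases w.1
            · exact Or.inl (by simpa using w.2.2)
            · exact Or.inr (by simp [← mul_assoc, ha2])⟩ : T)) fun t => ?_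
        rcases t.2 with h | h
        · exact ⟨(false, ⟨t.1, h⟩), Subtype.ext (one_mul _)⟩
        · exact ⟨(true, ⟨a * t.1, h⟩), Subtype.ext (by simp [← mul_assoc, ha2])⟩
      rw [Nat.card_prod, hF2] at h2'
      simp at h2'
      omega
    have hb2 : b * b = 1 := hA.mul_self hbA
    have hab : a * b = b * a := hA.comm haA hbA
    have habA := A.mul_mem haA hbA
    have hbE : b ∉ E := fun h => hbT (Or.inl ⟨h, hbA⟩)
    have habF : a * b ∉ F := fun h => hbT (Or.inr h)
    have habE : a * b ∉ E := fun h => habF ⟨h, habA⟩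
    have hmemA : ∀ x ∈ A, x ∈ F ∨ a * x ∈ F ∨ b * x ∈ F ∨ a * (b * x) ∈ F := fun x hx => by
      have hT4 : Nat.card T * 2 = Nat.card A := by
        have hh : (Nat.card T) ∣ Nat.card A := Subgroup.card_dvd_of_le hTA
        have hlt : Nat.card T < Nat.card A := by
          by_contra hge
          push Not at hge
          exact hbT (Subgroup.eq_of_le_of_card_ge hTA hge ▸ hbA)
        have h4 : 4 ≤ Nat.card T := by
          rw [show 4 = Nat.card (Bool × F) by rw [Nat.card_prod, hF2]; simp]
          refine Nat.card_le_card_of_injective (fun w : Bool × F =>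
            (⟨(if w.1 then a else 1) * w.2.1, by
              cases w.1
              · exact Or.inl (by simpa using w.2.2)
              · exact Or.inr (by simp [← mul_assoc, ha2])⟩ : T)) ?_
          rintro ⟨i, u⟩ ⟨j, v⟩ e
          have e' := congrArg (fun t : T => t.1) e
          cases i <;> cases j <;> simp at e'
          · exact Prod.ext rfl e'
          · exact absurd (show a ∈ F by
              rw [show a = u.1 * (v.1)⁻¹ by rw [e', mul_inv_cancel_right]]
              exact F.mul_mem u.2 (F.inv_mem v.2)) haF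
          · exact absurd (show a ∈ F by
              rw [show a = v.1 * (u.1)⁻¹ by rw [← e', mul_inv_cancel_right]]
              exact F.mul_mem v.2 (F.inv_mem u.2)) haF
          · exact Prod.ext rfl (Subtype.ext (by simpa using e'))
        obtain ⟨j, hj⟩ := hpow T
        rw [hA8] at hh hlt ⊢
        have : j < 3 := (Nat.pow_lt_pow_iff_right (show 1 < 2 by norm_num)).1 (show 2 ^ j < 2 ^ 3 by omega)
        interval_cases j <;> omega
      rcases mem_of_two hTA (by omega) hbA hbT hx with (h | h) | (h | h)
      exacts [Or.inl h, Or.inr (Or.inl h), Or.inr (Or.inr (Or.inl h)), Or.inr (Or.inr (Or.inr h))]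
    have hboth : ∀ e ∈ E, a * e * a = e → b * e * b = e → e = 1 ∨ e = z := fun e he h1 h2' => by
      refine hFz e ⟨he, hinA fun y hy => ?_⟩
      have c1 : Commute a e := hcomm_fix ha2 h1
      have c2 : Commute b e := hcomm_fix hb2 h2'
      have cF : ∀ {u}, u ∈ F → Commute u e := fun {u} hu => hE.comm hu.1 he
      rcases hmemA y hy with h | h | h | h
      · exact cF h
      · have h' := (c1.inv_left).mul_left (cF h); rwa [inv_mul_cancel_left] at h'
      · have h' := (c2.inv_left).mul_left (cF h); rwa [inv_mul_cancel_left] at h'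
      · have h' := (c2.inv_left).mul_left ((c1.inv_left).mul_left (cF h))
        rwa [inv_mul_cancel_left, inv_mul_cancel_left] at h'
    have hinA2 : ∀ x, a * x = x * a → b * x = x * b → x ∈ A := fun x h1 h2' => hinA fun y hy => by
      have c1 : Commute a x := h1
      have c2 : Commute b x := h2'
      have cF : ∀ {u}, u ∈ F → Commute u x := fun {u} hu => by
        rcases hFz u hu with rfl | rfl
        · exact Commute.one_left x
        · exact (Subgroup.mem_center_iff.1 hzc' x).symm
      rcases hmemA y hy with h | h | h | h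
      · exact cF h
      · have h' := (c1.inv_left).mul_left (cF h); rwa [inv_mul_cancel_left] at h'
      · have h' := (c2.inv_left).mul_left (cF h); rwa [inv_mul_cancel_left] at h'
      · have h' := (c2.inv_left).mul_left ((c1.inv_left).mul_left (cF h))
        rwa [inv_mul_cancel_left, inv_mul_cancel_left] at h'
    have hswap : ∀ {c d : S}, c * c = 1 → d * d = 1 → c * d = d * c → ∀ e, c * e * c = e →
        c * (d * e * d) * c = d * e * d := fun {c d} hc hd hcd e he => by
      calc c * (d * e * d) * c = c * d * e * (c * d)⁻¹ := by rw [mul_inv_rev, invol_inv hc, invol_inv hd]; group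
        _ = d * (c * e * c) * d := by rw [hcd, mul_inv_rev, invol_inv hc, invol_inv hd]; group
        _ = _ := by rw [he]
    -- four fixed points for `a` and `b`
    obtain ⟨Fb, hFb, -, Ib, hIbF, hIb, hcardb⟩ := card_le_fixed_sq hE hb2 (hconjE hb2)
    have four : ∀ {c d : S} {C : Subgroup S}, c * c = 1 → d * d = 1 → c * d = d * c →
        (∀ e, e ∈ C ↔ e ∈ E ∧ c * e * c = e) → (∀ e ∈ E, c * e * c = e → d * e * d = e → e = 1 ∨ e = z) →
        Nat.card C ≤ 4 ∧ (2 < Nat.card C → ∃ w ∈ C, w ≠ 1 ∧ w ≠ z ∧ com d w = z) := by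
      intro c d C hc hd hcd hCm hboth'
      have hCd : ∀ e ∈ C, d * e * d ∈ C := fun e he =>
        (hCm _).2 ⟨hconjE hd e ((hCm e).1 he).1, hswap hc hd hcd e ((hCm e).1 he).2⟩
      have hCE : Elem C := ⟨fun x hx y hy => hE.comm ((hCm x).1 hx).1 ((hCm y).1 hy).1,
        fun x hx => hE.2 x ((hCm x).1 hx).1⟩
      obtain ⟨C', hC', hCcom, I', hI'C, -, hcard'⟩ := card_le_fixed_sq hCE hd hCd
      have hC'z : ∀ x ∈ C', x = 1 ∨ x = z := fun x hx =>
        hboth' x ((hCm x).1 ((hC' x).1 hx).1).1 ((hCm x).1 ((hC' x).1 hx).1).2 ((hC' x).1 hx).2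
      have h2' := card_le_two hC'z
      refine ⟨by rw [hcard']; exact le_trans (Nat.mul_le_mul ((Subgroup.card_le_of_le hI'C).trans h2') h2') le_rfl,
        fun h3 => ?_⟩
      obtain ⟨w, hw, hw1, hwz⟩ : ∃ w ∈ C, w ≠ 1 ∧ w ≠ z := by
        by_contra hcon
        push Not at hcon
        have := card_le_two (C := C) (z := z) fun x hx => by
          by_cases h1 : x = 1
          exacts [Or.inl h1, Or.inr (hcon x hx h1)]
        omega
      refine ⟨w, hw, hw1, hwz, (hC'z _ (hCcom w hw)).resolve_left fun h => ?_⟩
      rcases hboth' w ((hCm w).1 hw).1 ((hCm w).1 hw).2 (inv_mul_eq_one.1 h).symm with r | r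
      exacts [hw1 r, hwz r]
    obtain ⟨hA4, hAw⟩ := four ha2 hb2 hab hFa hboth
    obtain ⟨hB4, hBw⟩ := four hb2 ha2 hab.symm hFb fun e he h1 h2' => hboth e he h2' h1
    have hFa' := hFa4 hA4
    have hFb' : Nat.card Fb = 4 := by
      have h1 := Nat.mul_le_mul_right (Nat.card Fb) (Subgroup.card_le_of_le hIbF)
      rw [← hcardb] at h1
      obtain ⟨j, hj⟩ := hpow Fb
      have hj3 : j < 3 := (Nat.pow_lt_pow_iff_right (show 1 < 2 by norm_num)).1 (show 2 ^ j < 2 ^ 3 by omega)
      interval_cases j <;> simp only [hj] at h1 <;> omega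
    -- elements centralising `E` and one of the involutions
    have P3 : ∀ {c d : S} {C : Subgroup S}, c * c = 1 → d * d = 1 → c * d = d * c →
        (∀ e, e ∈ C ↔ e ∈ E ∧ c * e * c = e) → (∀ e ∈ E, c * e * c = e → d * e * d = e → e = 1 ∨ e = z) →
        Nat.card C = 4 → (∀ x, c * x = x * c → d * x = x * d → x ∈ A) → c ∈ A → d ∈ A → a ∈ A →
        ∀ x, (∀ e ∈ E, e * x = x * e) → c * x = x * c → x ∈ E := by
      intro c d C hc hd hcd hCm hboth' hC4 hinA' _ _ _ x hx hxc
      set K := Subgroup.centralizer (E : Set S)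
      have hKn : K.Normal := inferInstance
      let L : Subgroup S := K ⊓ Subgroup.centralizer {c}
      have hLmem : ∀ {u}, u ∈ L ↔ (∀ e ∈ E, e * u = u * e) ∧ c * u = u * c := fun {u} => by
        simp only [L, K, Subgroup.mem_inf, Subgroup.mem_centralizer_iff, Set.mem_singleton_iff, forall_eq,
          SetLike.mem_coe]
      by_contra hxE
      have hCL : C < L := lt_of_le_of_ne (fun e he => hLmem.2 ⟨fun d' hd' => hE.comm hd' ((hCm e).1 he).1,
        hcomm_fix hc ((hCm e).1 he).2⟩) fun e => hxE ((hCm x).1 (e ▸ hLmem.2 ⟨hx, hxc⟩)).1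
      obtain ⟨y, hy, hyC, hyk⟩ := exists_fixed_coset h2 hd hCL
        (fun l hl n hn => by
          rw [← (hLmem.1 hl).1 n ((hCm n).1 hn).1, mul_inv_cancel_right]; exact hn)
        (fun e he => (hCm _).2 ⟨hconjE hd e ((hCm e).1 he).1, hswap hc hd hcd e ((hCm e).1 he).2⟩)
        (fun l hl => by
          refine hLmem.2 ⟨fun e he => ?_, hcomm_fix hc (hswap hc hd hcd l (by
            rw [(hLmem.1 hl).2, mul_assoc, hc, mul_one]))⟩
          have h1 := (hLmem.1 hl).1 _ (hconjE hd e he)
          calc e * (d * l * d) = d * ((d * e * d) * l) * d := by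
                simp only [mul_assoc]; rw [← mul_assoc d d, hd, one_mul]
            _ = d * (l * (d * e * d)) * d := by rw [h1]
            _ = d * l * d * e := by simp only [mul_assoc, hd, mul_one])
      have hkE : com d y ∈ E := ((hCm _).1 hyk).1
      obtain ⟨w, hw, -, -, hwz⟩ := (four hc hd hcd hCm hboth').2 (by omega)
      obtain ⟨v, hv, hvk⟩ : ∃ v ∈ C, com d v = com d y := by
        rcases hboth' _ hkE ((hCm _).1 hyk).2 (fix_of_inverted hE hd hkE) with r | r
        · exact ⟨1, C.one_mem, by rw [r, (com_one_iff hd).2 (by group)]⟩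
        · exact ⟨w, hw, by rw [r, hwz]⟩
      have hvE := ((hCm v).1 hv).1
      have hyL := L.mul_mem hy (hCL.le hv)
      have hmA : y * v ∈ A := hinA' _ (hLmem.1 hyL).2 ((com_one_iff hd).1 (by
        rw [com_mul hE hd hkE hvE, hvk, hE.mul_self hkE]))
      have hnotK : ∀ g : S, g ∉ E → g ∈ A → (∀ e ∈ E, e * g = g * e) → False := fun g hgE hgA hg => by
        have hg2 := hA.mul_self hgA
        have hgfix : ∀ e ∈ E, g * e * g = e := fun e he => by rw [← hg e he, mul_assoc, hg2, mul_one]
        rcases hmemA g hgA with h | h | h | h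
        · exact hgE h.1
        all_goals
          have hsplit : ∀ e ∈ E, ∀ {r : S}, r * g ∈ F → r * r = 1 → r * e * r = e := fun e he {r} hr hr2 => by
            calc r * e * r = r * (g * e * g) * r := by rw [hgfix e he]
              _ = (r * g) * e * (r * g)⁻¹ := by rw [mul_inv_rev, invol_inv hr2, invol_inv hg2]; group
              _ = e := by rw [hE.comm hr.1 he, mul_inv_cancel_right]
        · have := Subgroup.card_le_of_le (show E ≤ Fa from fun e he => (hFa e).2 ⟨he, hsplit e he h ha2⟩)
          omega
        · have := Subgroup.card_le_of_le (show E ≤ Fb from fun e he => (hFb e).2 ⟨he, hsplit e he h hb2⟩)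
          omega
        · rw [← mul_assoc] at h
          have hab2 : a * b * (a * b) = 1 := hA.mul_self habA
          obtain ⟨w, hw, hw1, hwz', hwc⟩ := hAw (by omega)
          have hwE := ((hFa w).1 hw).1
          have h' := hsplit w hwE h hab2
          have hbw : b * w * b = w := by
            calc b * w * b = a * (a * b * w * (a * b)) * a := by
                  rw [show a * b * w * (a * b) = a * b * w * (b * a) by rw [← hab]]
                  simp only [mul_assoc, ha2, mul_one]
                  rw [← mul_assoc a a, ha2, one_mul]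
              _ = a * w * a := by rw [h']
              _ = w := ((hFa w).1 hw).2
          rw [com, hbw, inv_mul_cancel] at hwc
          exact hz1 hwc.symm
      refine hyC ?_
      by_cases hyv : y * v ∈ E
      · have hyE := (E.mul_mem_cancel_right hvE).1 hyv
        exact (hCm y).2 ⟨hyE, by rw [(hLmem.1 hy).2, mul_assoc, hc, mul_one]⟩
      · exact (hnotK _ hyv hmA (hLmem.1 hyL).1).elim
    have P3a := P3 ha2 hb2 hab hFa hboth hFa' hinA2 haA hbA haA
    have P3b := P3 hb2 ha2 hab.symm hFb (fun e he h1 h2' => hboth e he h2' h1) hFb'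
      (fun x h1 h2' => hinA2 x h2' h1) hbA haA haA
    obtain ⟨wa, hwa, hwa1, hwaz, hwac⟩ := hAw (by omega)
    rcases hE16or8 hA4 with hE' | hE'
    · -- order eight
      have hImg : ∀ {c : S} {I' : Subgroup S}, (∀ x, x ∈ I' ↔ ∃ e ∈ E, com c e = x) → Nat.card I' = 2 →
          ∃ f, f ≠ 1 ∧ ∀ x, (∃ e ∈ E, com c e = x) ↔ (x = 1 ∨ x = f) := fun {c I'} hI' h2' => by
        obtain ⟨f, hf, hf1⟩ := (Subgroup.bot_or_exists_ne_one I').resolve_left fun e => by
          rw [e, Subgroup.card_bot] at h2'; omega
        refine ⟨f, hf1, fun x => ⟨fun h => ?_, ?_⟩⟩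
        · by_contra hcon
          push Not at hcon
          haveI := Fintype.ofFinite I'
          have h3 : ({1, f, x} : Finset S).card = 3 := by
            rw [Finset.card_insert_of_notMem, Finset.card_insert_of_notMem, Finset.card_singleton]
            · simp [hcon.2.symm]
            · simp [hf1.symm, hcon.1.symm]
          have hle := Finset.card_le_card (show ({1, f, x} : Finset S) ⊆ (I' : Set S).toFinset from fun w hw => by
            simp only [Finset.mem_insert, Finset.mem_singleton] at hw
            rw [Set.mem_toFinset]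
            rcases hw with rfl | rfl | rfl
            exacts [I'.one_mem, hf, (hI' _).2 h])
          rw [Nat.card_eq_fintype_card] at h2'
          simp only [Set.toFinset_card, SetLike.coe_sort_coe] at hle
          omega
        · rintro (rfl | rfl)
          exacts [(hI' 1).1 I'.one_mem, (hI' _).1 hf]
      have hI2 : Nat.card I = 2 := by rw [hE', hFa'] at hcard; omega
      have hIb2 : Nat.card Ib = 2 := by rw [hE', hFb'] at hcardb; omega
      obtain ⟨fa, hfa1, hfa⟩ := hImg hI hI2
      obtain ⟨fb, hfb1, hfb⟩ := hImg hIb hIb2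
      obtain ⟨wb, hwb, hwb1, hwbz, hwbc⟩ := hBw (by omega)
      have hwaE := ((hFa wa).1 hwa).1
      have hwbE := ((hFb wb).1 hwb).1
      have hnab : wb ∉ Fa := fun h => by
        rcases hboth wb hwbE ((hFa wb).1 h).2 ((hFb wb).1 hwb).2 with r | r
        exacts [hwb1 r, hwbz r]
      have hnba : wa ∉ Fb := fun h => by
        rcases hboth wa hwaE ((hFa wa).1 hwa).2 ((hFb wa).1 h).2 with r | r
        exacts [hwa1 r, hwaz r]
      -- failure of pinning gives a second kind of movement
      have fail : ∀ {c : S} {C : Subgroup S} {w w' : S}, c * c = 1 → (∀ e, e ∈ C ↔ e ∈ E ∧ c * e * c = e) →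
          Nat.card C = 4 → w ∈ C → w ≠ 1 → w ≠ z → w' ∈ E → w' ∉ C → com c w' = z → z ∈ C →
          (∀ x, (∀ e ∈ E, e * x = x * e) → c * x = x * c → x ∈ E) →
          (∀ x, (∀ u ∈ C, u * x = x * u) → c * x = x * c → x ∈ C ∨ c * x ∈ C) ∨
          ∃ x, (∀ u ∈ C, u * x = x * u) ∧ ∃ v, (v = w ∨ v = z * w) ∧ x * w' * x⁻¹ = w' * v := by
        intro c C w w' hc hCm hC4 hw hw1 hwz hw'E hw'C hcw' hzC hP
        by_cases hall : ∀ x, (∀ u ∈ C, u * x = x * u) → c * x = x * c → w'⁻¹ * (x * w' * x⁻¹) = 1 ∨
            w'⁻¹ * (x * w' * x⁻¹) = z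
        · refine Or.inl fun x hxC hxc => ?_
          have hgen : ∀ e ∈ E, e ∈ C ∨ w' * e ∈ C := fun e he => mem_of_two
            (fun u hu => ((hCm u).1 hu).1) (by omega) hw'E hw'C he
          have hK' : ∀ {y}, (∀ u ∈ C, u * y = y * u) → c * y = y * c → y * w' * y⁻¹ = w' → y ∈ C := by
            intro y h1 h2' h3
            have hyE : y ∈ E := hP y (fun e he => by
              rcases hgen e he with r | r
              · exact h1 e r
              · have h' : Commute w' y := (mul_inv_eq_iff_eq_mul.1 h3).symm
                have := h'.inv_left.mul_left (show Commute (w' * e) y from h1 _ r)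
                rwa [inv_mul_cancel_left] at this) h2'
            exact (hCm y).2 ⟨hyE, by rw [h2', mul_assoc, hc, mul_one]⟩
          rcases hall x hxC hxc with r | r
          · exact Or.inl (hK' hxC hxc (inv_mul_eq_one.1 r).symm)
          · refine Or.inr (hK' (fun u hu => ?_) ?_ ?_)
            · have := (hcomm_fix hc ((hCm u).1 hu).2)
              exact (show Commute u (c * x) from (Commute.symm this).mul_right (hxC u hu)).eq
            · exact ((Commute.refl c).mul_right hxc).eq
            · have e1 : x * w' * x⁻¹ = w' * z := by rw [← r, mul_inv_cancel_left]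
              calc c * x * w' * (c * x)⁻¹ = c * (x * w' * x⁻¹) * c⁻¹ := by group
                _ = c * w' * c * (c * z * c⁻¹) := by
                    rw [e1, invol_inv hc]; simp only [mul_assoc]; rw [← mul_assoc c c, hc, one_mul]
                _ = w' := by
                    rw [hzc, show c * w' * c = w' * z by rw [← hcw', com, mul_inv_cancel_left], mul_assoc,
                      hE.mul_self hz, mul_one]
        · push Not at hall
          obtain ⟨x, hxC, hxc, h1, h2'⟩ := hall
          refine Or.inr ⟨x, hxC, w'⁻¹ * (x * w' * x⁻¹), ?_, by rw [mul_inv_cancel_left]⟩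
          have hvE : w'⁻¹ * (x * w' * x⁻¹) ∈ E := E.mul_mem (E.inv_mem hw'E) (hEn.conj_mem _ hw'E x)
          have hvC : w'⁻¹ * (x * w' * x⁻¹) ∈ C := by
            refine (hCm _).2 ⟨hvE, ?_⟩
            have hxi : c * x⁻¹ = x⁻¹ * c := (show Commute c x from hxc).inv_right.eq
            have e1 : c * (x * w' * x⁻¹) * c = x * (c * w' * c) * x⁻¹ := by
              calc c * (x * w' * x⁻¹) * c = (c * x) * w' * (x⁻¹ * c) := by group
                _ = (x * c) * w' * (c * x⁻¹) := by rw [hxc, hxi]
                _ = _ := by group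
            have e2 : c * w' * c = w' * z := by rw [← hcw', com, mul_inv_cancel_left]
            calc c * (w'⁻¹ * (x * w' * x⁻¹)) * c = (c * w'⁻¹ * c) * (c * (x * w' * x⁻¹) * c) := by
                  simp only [mul_assoc]; rw [← mul_assoc c c, hc, one_mul]
              _ = (c * w' * c)⁻¹ * (x * (c * w' * c) * x⁻¹) := by
                  rw [e1, mul_inv_rev, mul_inv_rev, invol_inv hc, mul_assoc c w'⁻¹]
              _ = z⁻¹ * (w'⁻¹ * (x * w' * x⁻¹)) * (x * z * x⁻¹) := by rw [e2]; group
              _ = w'⁻¹ * (x * w' * x⁻¹) := by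
                  rw [hzc, hE.comm (E.inv_mem hz) hvE, inv_mul_cancel_right]
          have hzw : z * w ≠ 1 := fun e => hwz (by rw [eq_inv_of_mul_eq_one_right e, hE.inv_eq hz])
          rcases four_cases hC4.le hzC hw hz1 hw1 hwz.symm hzw hvC with r | r | r | r
          exacts [absurd r h1, absurd r h2', Or.inl r, Or.inr r]
      have hzFa : z ∈ Fa := (hFa z).2 ⟨hz, by have := hzc a; rwa [invol_inv ha2] at this⟩
      have hzFb : z ∈ Fb := (hFb z).2 ⟨hz, by have := hzc b; rwa [invol_inv hb2] at this⟩
      rcases fail ha2 hFa hFa' hwa hwa1 hwaz hwbE hnab hwbc hzFa P3a with h | ⟨x, hxC, v, hv, hxv⟩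
      · exact Eight.bound ψ hψ hQ ⟨h2, hEn, hE, hE', hmax hE', ha2, hFa, hFa', hfa1, hfa, h⟩
      rcases fail hb2 hFb hFb' hwb hwb1 hwbz hwaE hnba hwac hzFb P3b with h | ⟨x', hx'C, v', hv', hx'v⟩
      · exact Eight.bound ψ hψ hQ ⟨h2, hEn, hE, hE', hmax hE', hb2, hFb, hFb', hfb1, hfb, h⟩
      -- two failures generate an element of order three on `E`
      exfalso
      have hvFa : v ∈ Fa := by rcases hv with rfl | rfl; exacts [hwa, Fa.mul_mem hzFa hwa]
      have hv'Fb : v' ∈ Fb := by rcases hv' with rfl | rfl; exacts [hwb, Fb.mul_mem hzFb hwb]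
      have hxfix : ∀ u ∈ Fa, x * u * x⁻¹ = u := fun u hu => by rw [← hxC u hu, mul_inv_cancel_right]
      have hx'fix : ∀ u ∈ Fb, x' * u * x'⁻¹ = u := fun u hu => by rw [← hx'C u hu, mul_inv_cancel_right]
      have e1 : x * v' * x⁻¹ = v' * v := by
        rcases hv' with rfl | rfl
        · exact hxv
        · rw [← conj_mul, hzc, hxv, mul_assoc]
      have e2 : x' * v * x'⁻¹ = v * v' := by
        rcases hv with rfl | rfl
        · exact hx'v
        · rw [← conj_mul, hzc, hx'v, mul_assoc]
      have hvE := ((hFa v).1 hvFa).1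
      have hv'E := ((hFb v').1 hv'Fb).1
      set X := x * x' with hX
      have X1 : X * v * X⁻¹ = v' := by
        calc X * v * X⁻¹ = x * (x' * v * x'⁻¹) * x⁻¹ := by rw [hX]; group
          _ = (x * v * x⁻¹) * (x * v' * x⁻¹) := by rw [e2]; group
          _ = v' := by rw [hxfix v hvFa, e1, ← mul_assoc, hE.comm hvE hv'E, mul_assoc, hE.mul_self hvE, mul_one]
      have X2 : X * v' * X⁻¹ = v' * v := by
        calc X * v' * X⁻¹ = x * (x' * v' * x'⁻¹) * x⁻¹ := by rw [hX]; group
          _ = _ := by rw [hx'fix v' hv'Fb, e1]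
      have X3 : X ^ 3 * v * (X ^ 3)⁻¹ = v := by
        calc X ^ 3 * v * (X ^ 3)⁻¹ = X * (X * (X * v * X⁻¹) * X⁻¹) * X⁻¹ := by
              simp only [pow_succ, pow_zero, one_mul]; group
          _ = X * (v' * v) * X⁻¹ := by rw [X1, X2]
          _ = (X * v' * X⁻¹) * (X * v * X⁻¹) := by group
          _ = v := by
              rw [X1, X2, hE.comm hv'E hvE, mul_assoc, hE.mul_self hv'E, mul_one]
      obtain ⟨n, hn⟩ := h2 X
      have hmem : X ∈ Subgroup.centralizer ({v} : Set S) := by
        have h3 : X ^ 3 ∈ Subgroup.centralizer ({v} : Set S) := Subgroup.mem_centralizer_iff.2 fun u hu => by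
          rw [Set.mem_singleton_iff] at hu
          rw [hu]
          exact (mul_inv_eq_iff_eq_mul.1 X3).symm
        have hcop : Nat.Coprime 3 (2 ^ n) := Nat.Coprime.pow_right n (by norm_num)
        obtain ⟨m, hm⟩ := Nat.exists_mul_mod_eq_one_of_coprime hcop (Nat.lt_of_lt_of_le (by norm_num : 1 < 2)
          (by
            rcases Nat.eq_zero_or_pos n with rfl | hn0
            · exfalso
              rw [pow_zero, pow_one] at hn
              have : v' = v := by rw [← X1, hn]; group
              rcases hboth v hvE ((hFa v).1 hvFa).2 (this ▸ ((hFb v').1 hv'Fb).2) with r | r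
              · rcases hv with rfl | rfl
                · exact hwa1 r
                · exact hwaz (by rw [eq_inv_of_mul_eq_one_right r, hE.inv_eq hz])
              · rcases hv with rfl | rfl
                · exact hwaz r
                · exact hwa1 (mul_eq_left.1 r)
            · exact Nat.le_self_pow hn0.ne' 2))
        have hpw : X ^ (3 * m) = X := by
          rw [← Nat.div_add_mod (3 * m) (2 ^ n), hm.2, pow_add, pow_mul, hn, one_pow, one_mul, pow_one]
        rw [← hpw, pow_mul]; exact pow_mem h3 m
      have hXv : X * v * X⁻¹ = v := by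
        rw [← Subgroup.mem_centralizer_iff.1 hmem v rfl, mul_inv_cancel_right]
      have hvv : v' = v := X1.symm.trans hXv
      rcases hboth v hvE ((hFa v).1 hvFa).2 (hvv ▸ ((hFb v').1 hv'Fb).2) with r | r
      · rcases hv with rfl | rfl
        · exact hwa1 r
        · exact hwaz (by rw [eq_inv_of_mul_eq_one_right r, hE.inv_eq hz])
      · rcases hv with rfl | rfl
        · exact hwaz r
        · exact hwa1 (mul_eq_left.1 r)
    · -- order sixteen
      have hwaE := ((hFa wa).1 hwa).1
      have hK := self_sixteen hE h2 hE' ha2 (fun C h => hFa' ▸ hbound C h) P3a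
      set π := QuotientGroup.mk' E
      have hpi : ∀ u : S, π u = 1 ↔ u ∈ E := fun u => QuotientGroup.eq_one_iff u
      have hcomiff : ∀ {c x : S}, c * c = 1 → (com c x ∈ E ↔ π c * π x = π x * π c) := fun {c x} hc => by
        have hcc : π c * π c = 1 := by rw [← map_mul, hc, map_one]
        rw [← hpi, com, map_mul, map_inv, map_mul, map_mul, inv_mul_eq_one]
        constructor
        · intro h
          calc π c * π x = π c * π x * (π c * π c) := by rw [hcc, mul_one]
            _ = π x * π c := by rw [← mul_assoc, ← h]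
        · intro h; rw [h, mul_assoc, hcc, mul_one]
      -- the self-centralising four-group modulo `E`
      have hC0 : ∀ x, π a * π x = π x * π a → π b * π x = π x * π b →
          x ∈ E ∨ a * x ∈ E ∨ b * x ∈ E ∨ a * (b * x) ∈ E := by
        intro x h1 h2'
        obtain ⟨e, he, hae⟩ := adjust hE ha2 (hcov hE' hFa') ((hcomiff ha2).2 h1)
        set x1 := x * e with hx1
        have hpx : π x1 = π x := by rw [hx1, map_mul, (hpi e).2 he, mul_one]
        have hk2 : com b x1 ∈ E := (hcomiff hb2).2 (by rw [hpx]; exact h2')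
        have hfixa : a * com b x1 * a = com b x1 := by
          have ha' : a * x1 * a = x1 := by rw [hae, mul_assoc, ha2, mul_one]
          have ha'' : a * x1⁻¹ * a = x1⁻¹ := by
            have := congrArg (fun y : S => y⁻¹) ha'
            simpa only [mul_inv_rev, invol_inv ha2, mul_assoc] using this
          rw [com]
          calc a * (x1⁻¹ * (b * x1 * b)) * a = (a * x1⁻¹ * a) * (a * (b * x1 * b) * a) := by
                simp only [mul_assoc]; rw [← mul_assoc a a, ha2, one_mul]
            _ = _ := by rw [ha'', hswap ha2 hb2 hab x1 ha']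
        obtain ⟨v, hv, hvk⟩ : ∃ v ∈ Fa, com b v = com b x1 := by
          rcases hboth _ hk2 hfixa (fix_of_inverted hE hb2 hk2) with r | r
          · exact ⟨1, Fa.one_mem, by rw [r, (com_one_iff hb2).2 (by group)]⟩
          · exact ⟨wa, hwa, by rw [r, hwac]⟩
        have hvE := ((hFa v).1 hv).1
        have hmA : x1 * v ∈ A := hinA2 _
          ((show Commute a x1 from hae).mul_right (hcomm_fix ha2 ((hFa v).1 hv).2)).eq
          ((com_one_iff hb2).1 (by rw [com_mul hE hb2 hk2 hvE, hvk, hE.mul_self hk2]))
        have hev : e * v ∈ E := E.mul_mem he hvE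
        rw [show x1 * v = x * (e * v) by rw [hx1, mul_assoc]] at hmA
        rcases hmemA _ hmA with h | h | h | h
        · exact Or.inl ((E.mul_mem_cancel_right hev).1 h.1)
        · exact Or.inr (Or.inl ((E.mul_mem_cancel_right hev).1 (by rw [mul_assoc]; exact h.1)))
        · exact Or.inr (Or.inr (Or.inl ((E.mul_mem_cancel_right hev).1 (by rw [mul_assoc]; exact h.1))))
        · exact Or.inr (Or.inr (Or.inr ((E.mul_mem_cancel_right hev).1 (by
            rw [mul_assoc a, mul_assoc b]; exact h.1))))
      have hEtop : E < ⊤ := lt_top_iff_ne_top.2 fun e => haE (e ▸ Subgroup.mem_top a)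
      obtain ⟨c, -, hcE, -, hcc⟩ := exists_central_mod h2 E ⊤ hEtop
      have hccen : ∀ s, π c * π s = π s * π c := fun s => by
        have := (hpi _).2 (hcc s)
        rw [map_mul, map_inv, map_mul, map_mul, map_inv, inv_mul_eq_one] at this
        conv_lhs => rw [this]
        group
      have hpc := hC0 c (hccen a).symm (hccen b).symm
      have hcen_of : ∀ {g : S}, g * g = 1 → π g = π c → ∀ s, g⁻¹ * (s * g * s⁻¹) ∈ E := fun {g} _ hgc s => by
        rw [← hpi, map_mul, map_inv, map_mul, map_mul, map_inv, hgc, ← hccen s, mul_inv_cancel_right, inv_mul_cancel]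
      have hinv : ∀ {g x : S}, g * g = 1 → g * x ∈ E → π g = π x := fun {g x} hg h => by
        have h' := (hpi _).2 h
        rw [map_mul] at h'
        rw [← inv_eq_of_mul_eq_one_right h', ← map_inv, invol_inv hg]
      have hbc : π (a * b) = π (b * a) := by rw [hab]
      rcases hpc with hc' | hc' | hc' | hc'
      · exact absurd hc' hcE
      · exact bound_of_pair hE hE' hK h2 ha2 hb2 hab hz hz1 hzc hboth (hcen_of ha2 (hinv ha2 hc'))
          (fun x h1 h2' => by
            rcases hC0 x ((hcomiff ha2).1 h1) ((hcomiff hb2).1 h2') with r | r | r | r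
            exacts [Or.inl r, Or.inr (Or.inl r), Or.inr (Or.inr (Or.inl r)),
              Or.inr (Or.inr (Or.inr (by rw [mul_assoc]; exact r)))]) H ψ hψ hQ
      · exact bound_of_pair hE hE' hK h2 hb2 ha2 hab.symm hz hz1 hzc (fun e he h1 h2' => hboth e he h2' h1)
          (hcen_of hb2 (hinv hb2 hc'))
          (fun x h1 h2' => by
            rcases hC0 x ((hcomiff ha2).1 h2') ((hcomiff hb2).1 h1) with r | r | r | r
            exacts [Or.inl r, Or.inr (Or.inr (Or.inl r)), Or.inr (Or.inl r),
              Or.inr (Or.inr (Or.inr (by rw [← hab, mul_assoc]; exact r)))]) H ψ hψ hQ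
      · have hab2 : a * b * (a * b) = 1 := hA.mul_self habA
        have habb : a * b * b = a := by rw [mul_assoc, hb2, mul_one]
        have hcomab : a * b * a = a * (a * b) := hA.comm habA haA
        refine bound_of_pair hE hE' hK h2 hab2 ha2 hcomab hz hz1 hzc ?_
          (hcen_of hab2 (hinv hab2 (by rw [mul_assoc]; exact hc'))) ?_ H ψ hψ hQ
        · intro e he h1 h2'
          refine hboth e he h2' ?_
          calc b * e * b = a * (a * b * e * (a * b)) * a := by
                rw [show a * b * e * (a * b) = a * b * e * (b * a) by rw [← hab]]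
                simp only [mul_assoc, ha2, mul_one]
                rw [← mul_assoc a a, ha2, one_mul]
            _ = e := by rw [h1, h2']
        · intro x h1 h2'
          have ha' := (hcomiff ha2).1 h2'
          have hab' := (hcomiff hab2).1 h1
          have hb' : π b * π x = π x * π b := by
            have e : π b = π a * π (a * b) := by rw [← map_mul, ← mul_assoc, ha2, one_mul]
            rw [e]; exact ((show Commute (π a) (π x) from ha').mul_left hab').eq
          rcases hC0 x ha' hb' with r | r | r | r
          · exact Or.inl r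
          · exact Or.inr (Or.inr (Or.inl r))
          · refine Or.inr (Or.inr (Or.inr ?_))
            rw [show a * b * a = b by rw [hab, mul_assoc, ha2, mul_one]]; exact r
          · exact Or.inr (Or.inl (by rw [mul_assoc]; exact r))
  · -- `F` of order four
    have hF4 : Nat.card F = 4 := by simpa using hk
    have hFA : F ≤ A := inf_le_right
    have hsplit : ∀ y ∈ A, y ∈ F ∨ a * y ∈ F := fun y hy => mem_of_two hFA (by omega) haA haF hy
    have hinA4 : ∀ x, (∀ u ∈ F, u * x = x * u) → a * x = x * a → x ∈ A := fun x h1 h2' => hinA fun y hy => by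
      rcases hsplit y hy with h | h
      · exact h1 y h
      · have := ((show Commute a x from h2').inv_left).mul_left (show Commute (a * y) x from h1 _ h)
        rwa [inv_mul_cancel_left] at this
    have hFaF : Fa = F := le_antisymm (fun e he => by
      refine ⟨((hFa e).1 he).1, hinA4 e (fun u hu => hE.comm hu.1 ((hFa e).1 he).1) ?_⟩
      exact hcomm_fix ha2 ((hFa e).1 he).2) hFle
    rw [hFaF] at hFa hbound hcard hIF hcov hE16or8
    have hpin : ∀ x, (∀ u ∈ F, u * x = x * u) → a * x = x * a → x ∈ F ∨ a * x ∈ F := fun x h1 h2' =>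
      hsplit x (hinA4 x h1 h2')
    rcases hE16or8 hF4.le with hE' | hE'
    · have hI2 : Nat.card I = 2 := by rw [hE', hF4] at hcard; omega
      obtain ⟨f, hf, hf1⟩ := (Subgroup.bot_or_exists_ne_one I).resolve_left fun e => by
        rw [e, Subgroup.card_bot] at hI2; omega
      refine Eight.bound ψ hψ hQ ⟨h2, hEn, hE, hE', hmax hE', ha2, hFa, hF4, hf1, fun x => ⟨fun h => ?_, ?_⟩, hpin⟩
      · by_contra hcon
        push Not at hcon
        haveI := Fintype.ofFinite I
        have h3 : ({1, f, x} : Finset S).card = 3 := by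
          rw [Finset.card_insert_of_notMem, Finset.card_insert_of_notMem, Finset.card_singleton]
          · simp [hcon.2.symm]
          · simp [hf1.symm, hcon.1.symm]
        have hle := Finset.card_le_card (show ({1, f, x} : Finset S) ⊆ (I : Set S).toFinset from fun w hw => by
          simp only [Finset.mem_insert, Finset.mem_singleton] at hw
          rw [Set.mem_toFinset]
          rcases hw with rfl | rfl | rfl
          exacts [I.one_mem, hf, (hI _).2 h])
        rw [Nat.card_eq_fintype_card] at hI2
        simp only [Set.toFinset_card, SetLike.coe_sort_coe] at hle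
        omega
      · rintro (rfl | rfl)
        exacts [(hI 1).1 I.one_mem, (hI _).1 hf]
    · have hcov' := hcov hE' hF4
      have hbound4 : ∀ C : Subgroup S, (∀ e ∈ C, e ∈ E ∧ a * e * a = e) → Nat.card C ≤ 4 :=
        fun C h => hF4 ▸ hbound C h
      have hK := self_sixteen hE h2 hE' ha2 hbound4 fun x hx hax => by
        rcases hpin x (fun u hu => hx u hu.1) hax with r | r
        · exact r.1
        · have := Subgroup.card_le_of_le (show E ≤ F from fun e he => (hFa e).2 ⟨he, by
            have hae : Commute e a := by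
              have := (show Commute e (a * x) from hE.comm he r.1).mul_right
                ((show Commute e x from hx e he).inv_right)
              rwa [mul_inv_cancel_right] at this
            rw [← hae.eq, mul_assoc, ha2, mul_one]⟩)
          omega
      set π := QuotientGroup.mk' E
      have hpi : ∀ u : S, π u = 1 ↔ u ∈ E := fun u => QuotientGroup.eq_one_iff u
      have haa' : π a * π a = 1 := by rw [← map_mul, ha2, map_one]
      obtain ⟨p, hp, hp1, hpz⟩ : ∃ p ∈ F, p ≠ 1 ∧ p ≠ z := by
        by_contra hcon
        push Not at hcon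
        have := card_le_two (C := F) (z := z) fun x hx => by
          by_cases h1 : x = 1
          exacts [Or.inl h1, Or.inr (hcon x hx h1)]
        omega
      have hzp : z * p ≠ 1 := fun e => hpz (by rw [eq_inv_of_mul_eq_one_right e, hE.inv_eq hz])
      have hFcases : ∀ {u}, u ∈ F → u = 1 ∨ u = z ∨ u = p ∨ u = z * p := fun {u} hu =>
        four_cases hF4.le hzF hp hz1 hp1 hpz.symm hzp hu
      have hmove : ∀ {s}, a * s = s * a → s * p * s⁻¹ = p ∨ s * p * s⁻¹ = z * p := fun {s} hs => by
        have hm : s * p * s⁻¹ ∈ F := by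
          refine (hFa _).2 ⟨hEn.conj_mem p hp.1 s, ?_⟩
          have hsi : a * s⁻¹ = s⁻¹ * a := (show Commute a s from hs).inv_right.eq
          calc a * (s * p * s⁻¹) * a = (a * s) * p * (s⁻¹ * a) := by group
            _ = (s * a) * p * (a * s⁻¹) := by rw [hs, hsi]
            _ = s * (a * p * a) * s⁻¹ := by group
            _ = _ := by rw [((hFa p).1 hp).2]
        rcases hFcases hm with e | e | e | e
        · exact absurd (conj_eq_one_iff.1 e) hp1
        · exact absurd (mul_left_cancel (mul_right_cancel (e.trans (hzc s).symm))) hpz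
        · exact Or.inl e
        · exact Or.inr e
      have hfixed : ∀ {s}, a * s = s * a → s * p * s⁻¹ = p → s ∈ E ∨ a * s ∈ E := fun {s} hs hsp => by
        refine (hpin s (fun u hu => ?_) hs).imp (fun r => r.1) (fun r => r.1)
        have : s * u * s⁻¹ = u := by
          rcases hFcases hu with e | e | e | e <;> rw [e]
          · group
          · exact hzc s
          · exact hsp
          · rw [← conj_mul, hzc, hsp]
        exact (mul_inv_eq_iff_eq_mul.1 this).symm
      by_cases hall : ∀ s, com a s ∈ E
      · -- `a` is central modulo `E`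
        refine bound_of_central hE hE' hK h2 ha2 hbound4 (Or.inl ⟨?_, fun s => ?_, haE⟩) H ψ hψ hQ
        · have hq : ∀ {s}, s ∈ E ∨ a * s ∈ E → π s = 1 ∨ π s = π a := fun {s} h => h.imp (hpi s).2 fun r => by
            have h' := (hpi _).2 r
            rw [map_mul] at h'
            rw [← inv_eq_of_mul_eq_one_right h', inv_eq_of_mul_eq_one_right haa']
          by_cases hmv : ∃ s1, a * s1 = s1 * a ∧ s1 * p * s1⁻¹ ≠ p
          · obtain ⟨s1, hs1, hs1p⟩ := hmv
            rw [Subgroup.index_eq_card]
            refine (Nat.card_le_card_of_surjective (fun w : Bool × Bool =>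
              (if w.1 then (π s1)⁻¹ else 1) * (if w.2 then π a else 1)) fun u => ?_).trans (by simp)
            obtain ⟨s, rfl⟩ := QuotientGroup.mk'_surjective E u
            obtain ⟨e, he, hse⟩ := adjust hE ha2 hcov' (hall s)
            have hps : π (s * e) = π s := by rw [map_mul, (hpi e).2 he, mul_one]
            rcases hmove hse with r | r
            · rcases hq (hfixed hse r) with q | q <;> rw [hps] at q
              · exact ⟨(false, false), (one_mul _).trans q.symm⟩
              · exact ⟨(false, true), (one_mul _).trans q.symm⟩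
            · have hcm : a * (s1 * (s * e)) = s1 * (s * e) * a :=
                ((show Commute a s1 from hs1).mul_right hse).eq
              have hfx : s1 * (s * e) * p * (s1 * (s * e))⁻¹ = p := by
                calc s1 * (s * e) * p * (s1 * (s * e))⁻¹ = s1 * (s * e * p * (s * e)⁻¹) * s1⁻¹ := by group
                  _ = (s1 * z * s1⁻¹) * (s1 * p * s1⁻¹) := by rw [r]; group
                  _ = p := by rw [hzc, (hmove hs1).resolve_left hs1p, ← mul_assoc, hE.mul_self hz, one_mul]
              rcases hq (hfixed hcm hfx) with q | q <;> rw [map_mul, hps] at q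
              · refine ⟨(true, false), ?_⟩
                show (π s1)⁻¹ * 1 = π s
                rw [mul_one, inv_eq_of_mul_eq_one_right q]
              · refine ⟨(true, true), ?_⟩
                show (π s1)⁻¹ * π a = π s
                rw [← q, inv_mul_cancel_left]
          · push Not at hmv
            rw [Subgroup.index_eq_card]
            refine (Nat.card_le_card_of_surjective (fun w : Bool => if w then π a else 1) fun u => ?_).trans
              (by simp)
            obtain ⟨s, rfl⟩ := QuotientGroup.mk'_surjective E u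
            obtain ⟨e, he, hse⟩ := adjust hE ha2 hcov' (hall s)
            have hps : π (s * e) = π s := by rw [map_mul, (hpi e).2 he, mul_one]
            rcases hq (hfixed hse (hmv _ hse)) with q | q <;> rw [hps] at q
            · exact ⟨false, q.symm⟩
            · exact ⟨true, q.symm⟩
        · have h := hconjE ha2 _ (hall s⁻¹)
          convert h using 1
          simp only [com, inv_inv, invol_inv ha2, mul_assoc, ha2, mul_one]
      · push Not at hall
        obtain ⟨s0, hs0⟩ := hall
        have hEtop : E < ⊤ := lt_top_iff_ne_top.2 fun e => haE (e ▸ Subgroup.mem_top a)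
        obtain ⟨c, -, hcE, -, hcc⟩ := exists_central_mod h2 E ⊤ hEtop
        have hccen : ∀ s, π c * π s = π s * π c := fun s => by
          have := (hpi _).2 (hcc s)
          rw [map_mul, map_inv, map_mul, map_mul, map_inv, inv_mul_eq_one] at this
          conv_lhs => rw [this]
          group
        have hcom : com a c ∈ E := by
          rw [← hpi, com, map_mul, map_inv, map_mul, map_mul, ← hccen a, mul_assoc, haa', mul_one, inv_mul_cancel]
        obtain ⟨e, he, hce⟩ := adjust hE ha2 hcov' hcom
        set c1 := c * e with hc1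
        have hpc1 : π c1 = π c := by rw [hc1, map_mul, (hpi e).2 he, mul_one]
        have hc1p : c1 * p * c1⁻¹ = z * p := (hmove hce).resolve_left fun r => by
          rcases hfixed hce r with q | q
          · exact hcE ((E.mul_mem_cancel_right he).1 q)
          · refine hs0 ?_
            have h' := (hpi _).2 q
            rw [map_mul, hpc1] at h'
            have hac : π a = π c := by rw [← inv_eq_of_mul_eq_one_right haa', inv_eq_of_mul_eq_one_right h']
            rw [← hpi, com, map_mul, map_inv, map_mul, map_mul, hac, hccen s0, mul_assoc, ← hac, haa', mul_one,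
              inv_mul_cancel]
        have hsq : c1 * c1 ∈ E := by
          have hcc2 : π c1 * π c1 = 1 := by
            rcases hfixed ((show Commute a c1 from hce).mul_right hce).eq (by
              calc c1 * c1 * p * (c1 * c1)⁻¹ = c1 * (c1 * p * c1⁻¹) * c1⁻¹ := by group
                _ = c1 * (z * p) * c1⁻¹ := by rw [hc1p]
                _ = (c1 * z * c1⁻¹) * (c1 * p * c1⁻¹) := by group
                _ = p := by rw [hzc, hc1p, ← mul_assoc, hE.mul_self hz, one_mul]) with q | q
            · rw [← map_mul, hpi]; exact q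
            · exfalso
              refine hs0 ?_
              have h' := (hpi _).2 q
              rw [map_mul, map_mul, hpc1] at h'
              have hac : π a = π c * π c := by
                rw [← inv_eq_of_mul_eq_one_right haa', inv_eq_of_mul_eq_one_right h']
              rw [← hpi, com, map_mul, map_inv, map_mul, map_mul, hac,
                ((show Commute (π c) (π s0) from hccen s0).mul_left (hccen s0)).eq, mul_assoc, ← hac, haa', mul_one,
                inv_mul_cancel]
          rw [← hpi, map_mul]; exact hcc2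
        have hsqF : c1 * c1 ∈ F := (hFa _).2 ⟨hsq, by
          rw [((show Commute a c1 from hce).mul_right hce).eq, mul_assoc, ha2, mul_one]⟩
        obtain ⟨c2, hc2E, hc2, hc2a, hc2p⟩ : ∃ c2, π c2 = π c1 ∧ c2 * c2 = 1 ∧ a * c2 = c2 * a ∧
            c2 * p * c2⁻¹ = z * p := by
          have hfix : c1 * (c1 * c1) * c1⁻¹ = c1 * c1 := by group
          rcases hFcases hsqF with r | r | r | r
          · exact ⟨c1, rfl, r, hce, hc1p⟩
          · refine ⟨c1 * p, by rw [map_mul, (hpi p).2 hp.1, mul_one], ?_,
              ((show Commute a c1 from hce).mul_right (hcomm_fix ha2 ((hFa p).1 hp).2)).eq, ?_⟩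
            · calc c1 * p * (c1 * p) = (c1 * p * c1⁻¹) * (c1 * c1) * p := by group
                _ = 1 := by
                    rw [hc1p, r, hE.comm hz hp.1, mul_assoc p z z, hE.mul_self hz, mul_one, hE.mul_self hp.1]
            · calc c1 * p * p * (c1 * p)⁻¹ = c1 * p * c1⁻¹ := by group
                _ = _ := hc1p
          · exfalso
            rw [r, hc1p] at hfix
            exact hz1 (mul_eq_right.1 hfix)
          · exfalso
            rw [r, ← conj_mul, hzc, hc1p] at hfix
            rw [← mul_assoc, hE.mul_self hz, one_mul] at hfix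
            exact hz1 (mul_eq_right.1 hfix.symm)
        have hfix2 : ∀ e ∈ E, c2 * e * c2 = e → a * e * a = e → e = 1 ∨ e = z := fun e he h1 h2' => by
          have h1' : c2 * e * c2⁻¹ = e := by rw [invol_inv hc2]; exact h1
          rcases hFcases ((hFa e).2 ⟨he, h2'⟩) with r | r | r | r
          · exact Or.inl r
          · exact Or.inr r
          · rw [r, hc2p] at h1'; exact absurd (mul_eq_right.1 h1') hz1
          · rw [r, ← conj_mul, hzc, hc2p] at h1'
            rw [← mul_assoc, hE.mul_self hz, one_mul] at h1'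
            exact absurd (mul_eq_right.1 h1'.symm) hz1
        have hcen2 : ∀ s, c2⁻¹ * (s * c2 * s⁻¹) ∈ E := fun s => by
          rw [← hpi, map_mul, map_inv, map_mul, map_mul, map_inv, hc2E, hpc1, ← hccen s, mul_inv_cancel_right,
            inv_mul_cancel]
        refine bound_of_pair hE hE' hK h2 hc2 ha2 hc2a.symm hz hz1 hzc hfix2 hcen2 ?_ H ψ hψ hQ
        intro x _ hx
        obtain ⟨e', he', hxe⟩ := adjust hE ha2 hcov' hx
        rcases hmove hxe with r | r
        · rcases hfixed hxe r with q | q
          · exact Or.inl ((E.mul_mem_cancel_right he').1 q)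
          · exact Or.inr (Or.inr (Or.inl ((E.mul_mem_cancel_right he').1 (by rw [mul_assoc]; exact q))))
        · have hcm : a * (c2 * (x * e')) = c2 * (x * e') * a := ((show Commute a c2 from hc2a).mul_right hxe).eq
          have hfx : c2 * (x * e') * p * (c2 * (x * e'))⁻¹ = p := by
            calc c2 * (x * e') * p * (c2 * (x * e'))⁻¹ = c2 * (x * e' * p * (x * e')⁻¹) * c2⁻¹ := by group
              _ = (c2 * z * c2⁻¹) * (c2 * p * c2⁻¹) := by rw [r]; group
              _ = p := by rw [hzc, hc2p, ← mul_assoc, hE.mul_self hz, one_mul]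
          rcases hfixed hcm hfx with q | q
          · exact Or.inr (Or.inl ((E.mul_mem_cancel_right he').1 (by rw [mul_assoc]; exact q)))
          · exact Or.inr (Or.inr (Or.inr ((E.mul_mem_cancel_right he').1 (by
              rw [← hc2a, mul_assoc (a * c2), mul_assoc a]
              exact q))))

end Cfsg.Agent.TwoGroups.SelfCentralEight
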