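import Cfsg.Agent.TwoGroups.SelfCentralEight.Main

/-! A self-centralising central product of two quaternion groups contains a self-centralising `E₈`. -/

set_option autoImplicit false
set_option linter.unusedSectionVars false

namespace Cfsg.Agent.TwoGroups.SelfCentralEight

variable {S : Type*} [Group S] [Finite S]

/-- `x` equals `y` up to `z`. -/
def Pm (z x y : S) : Prop := x = y ∨ x = y * z

/-- Two commuting quaternion pairs with common involution `z` and nothing else centralising them. -/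
structure Quads (z i j i' j' : S) : Prop where
  z1 : z ≠ 1
  zz : z * z = 1
  ii : i * i = z
  jj : j * j = z
  ii' : i' * i' = z
  jj' : j' * j' = z
  ji : j * i = i * j * z
  ji' : j' * i' = i' * j' * z
  c11 : Commute i i'
  c12 : Commute i j'
  c21 : Commute j i'
  c22 : Commute j j'
  cent : ∀ y, Commute y i → Commute y j → Commute y i' → Commute y j' → y = 1 ∨ y = z

namespace Quads

variable {z i j i' j' : S} (P : Quads z i j i' j')
include P

theorem zi : Commute z i := P.ii ▸ (Commute.refl i).mul_left (Commute.refl i)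
theorem zj : Commute z j := P.jj ▸ (Commute.refl j).mul_left (Commute.refl j)
theorem zi' : Commute z i' := P.ii' ▸ (Commute.refl i').mul_left (Commute.refl i')
theorem zj' : Commute z j' := P.jj' ▸ (Commute.refl j').mul_left (Commute.refl j')

theorem inv_z : z⁻¹ = z := inv_eq_of_mul_eq_one_right P.zz

theorem ij : i * j = j * i * z := by rw [P.ji, mul_assoc _ z, P.zz, mul_one]

theorem ij' : i' * j' = j' * i' * z := by rw [P.ji', mul_assoc _ z, P.zz, mul_one]

theorem ji_conj : j * i * j⁻¹ = i * z := by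
  rw [P.ji, mul_assoc i j z, ← P.zj.eq, ← mul_assoc i z j, mul_inv_cancel_right]

theorem ij_conj : i * j * i⁻¹ = j * z := by
  rw [P.ij, mul_assoc j i z, ← P.zi.eq, ← mul_assoc j z i, mul_inv_cancel_right]

theorem twist : Quads z i j j' (i' * j') where
  z1 := P.z1
  zz := P.zz
  ii := P.ii
  jj := P.jj
  ii' := P.jj'
  jj' := by
    calc i' * j' * (i' * j') = i' * (j' * i') * j' := by group
      _ = i' * (i' * j') * (z * j') := by rw [P.ji']; group
      _ = i' * (i' * j') * (j' * z) := by rw [P.zj'.eq]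
      _ = (i' * i') * (j' * j') * z := by group
      _ = z := by rw [P.ii', P.jj', P.zz, one_mul]
  ji := P.ji
  ji' := by
    calc i' * j' * j' = i' * z := by rw [mul_assoc, P.jj']
      _ = j' * (i' * j') * z := by
        rw [P.ij', ← mul_assoc, ← mul_assoc, P.jj', mul_assoc _ z z, P.zz, mul_one, P.zi'.eq]
  c11 := P.c12
  c12 := P.c11.mul_right P.c12
  c21 := P.c22
  c22 := P.c21.mul_right P.c22
  cent := fun y h1 h2 h3 h4 => P.cent y h1 h2 (by simpa using h4.mul_right h3.inv_right) h3

/-- A self-centralising `E₈` or an element exchanging the factors. -/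
theorem plane (h2 : IsPGroup 2 S) :
    (∃ A : Subgroup S, Elem A ∧ Nat.card A = 8 ∧ Subgroup.centralizer (A : Set S) = A) ∨
    ∃ x, x * z * x⁻¹ = z ∧ Pm z (x * i * x⁻¹) i' ∧ Pm z (x * j * x⁻¹) j' ∧ Pm z (x * i' * x⁻¹) i ∧
      Pm z (x * j' * x⁻¹) j := by
  classical
  set u := i * i' with hu
  set v := j * j' with hv
  have cuv : Commute u v := by
    show u * v = v * u
    calc u * v = i * (i' * j) * j' := by rw [hu, hv]; group
      _ = i * j * (i' * j') := by rw [← P.c21.eq]; group
      _ = j * i * z * (j' * i' * z) := by rw [P.ij, P.ij']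
      _ = j * i * (z * (j' * i')) * z := by group
      _ = j * i * (j' * i') * (z * z) := by rw [(P.zj'.mul_right P.zi').eq]; group
      _ = j * (i * j') * i' := by rw [P.zz, mul_one]; group
      _ = v * u := by rw [P.c12.eq, hu, hv]; group
  have czu : Commute z u := P.zi.mul_right P.zi'
  have czv : Commute z v := P.zj.mul_right P.zj'
  have uu : u * u = 1 := by
    calc u * u = i * (i' * i) * i' := by rw [hu]; group
      _ = i * i * (i' * i') := by rw [← P.c11.eq]; group
      _ = 1 := by rw [P.ii, P.ii', P.zz]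
  have vv : v * v = 1 := by
    calc v * v = j * (j' * j) * j' := by rw [hv]; group
      _ = j * j * (j' * j') := by rw [← P.c22.eq]; group
      _ = 1 := by rw [P.jj, P.jj', P.zz]
  let mk : Bool × Bool × Bool → S := fun p => (if p.1 then z else 1) * (if p.2.1 then u else 1) * (if p.2.2 then v else 1)
  let G := Subgroup.closure ({z, u, v} : Set S)
  have hcomm : ∀ a ∈ G, ∀ b ∈ G, a * b = b * a := closure_comm (by
    intro a ha b hb
    simp only [Set.mem_insert_iff, Set.mem_singleton_iff] at ha hb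
    rcases ha with rfl | rfl | rfl <;> rcases hb with rfl | rfl | rfl
    exacts [rfl, czu.eq, czv.eq, czu.symm.eq, rfl, cuv.eq, czv.symm.eq, cuv.symm.eq, rfl])
  have hzG : z ∈ G := Subgroup.subset_closure (by simp)
  have huG : u ∈ G := Subgroup.subset_closure (by simp)
  have hvG : v ∈ G := Subgroup.subset_closure (by simp)
  have hmkG : ∀ p, mk p ∈ G := fun p => G.mul_mem (G.mul_mem (by split_ifs; exacts [hzG, G.one_mem])
    (by split_ifs; exacts [huG, G.one_mem])) (by split_ifs; exacts [hvG, G.one_mem])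
  have hpw : ∀ (w : S), w * w = 1 → ∀ b b' : Bool,
      (if b then w else 1) * (if b' then w else 1) = if (b ^^ b') then w else 1 := fun w hw b b' => by
    cases b <;> cases b' <;> simp [hw]
  have hmkmul : ∀ p q, mk p * mk q = mk (p.1 ^^ q.1, p.2.1 ^^ q.2.1, p.2.2 ^^ q.2.2) := by
    intro p q
    have m : ∀ (b : Bool) (w : S), w ∈ G → (if b then w else 1) ∈ G := fun b w hw => by
      cases b; exacts [G.one_mem, hw]
    have k : ∀ {a b c d e f : S}, b ∈ G → c ∈ G → d ∈ G → e ∈ G →
        a * b * c * (d * e * f) = a * d * (b * e) * (c * f) := by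
      intro a b c d e f hb hc hd he
      calc a * b * c * (d * e * f) = a * (b * c * d) * e * f := by group
        _ = a * (d * (b * c)) * e * f := by rw [hcomm _ (G.mul_mem hb hc) d hd]
        _ = a * d * b * (c * e) * f := by group
        _ = a * d * b * (e * c) * f := by rw [hcomm c hc e he]
        _ = _ := by group
    show _ * _ * _ * (_ * _ * _) = _ * _ * _
    rw [k (m _ u huG) (m _ v hvG) (m _ z hzG) (m _ u huG), hpw z P.zz, hpw u uu, hpw v vv]
  let A : Subgroup S :=
    { carrier := Set.range mk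
      one_mem' := ⟨(false, false, false), by simp [mk]⟩
      mul_mem' := by rintro _ _ ⟨p, rfl⟩ ⟨q, rfl⟩; exact ⟨_, (hmkmul p q).symm⟩
      inv_mem' := by
        rintro _ ⟨p, rfl⟩
        exact ⟨p, (inv_eq_of_mul_eq_one_right (by rw [hmkmul]; simp [mk])).symm⟩ }
  have hzA : z ∈ A := ⟨(true, false, false), by simp [mk]⟩
  have huA : u ∈ A := ⟨(false, true, false), by simp [mk]⟩
  have hvA : v ∈ A := ⟨(false, false, true), by simp [mk]⟩
  have hA : Elem A := ⟨fun a ha b hb => by
      obtain ⟨p, rfl⟩ := ha; obtain ⟨q, rfl⟩ := hb; exact hcomm _ (hmkG p) _ (hmkG q),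
    fun a ha => by obtain ⟨p, rfl⟩ := ha; rw [pow_two, hmkmul]; simp [mk]⟩
  have ci : i * u * i⁻¹ = u := by rw [((Commute.refl i).mul_right P.c11).eq, mul_inv_cancel_right]
  have cj : j * v * j⁻¹ = v := by rw [((Commute.refl j).mul_right P.c22).eq, mul_inv_cancel_right]
  have ju : j * u * j⁻¹ = u * z := by
    calc j * u * j⁻¹ = j * i * j⁻¹ * (j * i' * j⁻¹) := by rw [hu]; group
      _ = i * z * i' := by rw [P.ji_conj, P.c21.eq, mul_inv_cancel_right]
      _ = u * z := by rw [hu, mul_assoc, P.zi'.eq, mul_assoc]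
  have iv : i * v * i⁻¹ = v * z := by
    calc i * v * i⁻¹ = i * j * i⁻¹ * (i * j' * i⁻¹) := by rw [hv]; group
      _ = j * z * j' := by rw [P.ij_conj, P.c12.eq, mul_inv_cancel_right]
      _ = v * z := by rw [hv, mul_assoc, P.zj'.eq, mul_assoc]
  have hmkinj : Function.Injective mk := by
    intro p q e
    have h1 : mk (p.1 ^^ q.1, p.2.1 ^^ q.2.1, p.2.2 ^^ q.2.2) = 1 := by
      rw [← hmkmul, e, hmkmul]; simp [mk]
    suffices ∀ r, mk r = 1 → r = (false, false, false) by
      have := this _ h1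
      simp only [Prod.mk.injEq] at this
      have hx : ∀ a b : Bool, (a ^^ b) = false → a = b := by decide
      exact Prod.ext (hx _ _ this.1) (Prod.ext (hx _ _ this.2.1) (hx _ _ this.2.2))
    rintro ⟨b1, b2, b3⟩ hr
    have hI := congrArg (fun w : S => i * w * i⁻¹) hr
    have hJ := congrArg (fun w : S => j * w * j⁻¹) hr
    have zi := P.zi.eq; have zj := P.zj.eq
    have iz : i * z * i⁻¹ = z := by rw [← zi, mul_inv_cancel_right]
    have jz : j * z * j⁻¹ = z := by rw [← zj, mul_inv_cancel_right]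
    simp only [mk] at hI hJ hr
    have e3 : b3 = false := by
      cases b3
      · rfl
      · exfalso
        apply P.z1
        have : i * ((if b1 then z else 1) * (if b2 then u else 1) * v) * i⁻¹ =
            (if b1 then z else 1) * (if b2 then u else 1) * v * z := by
          calc i * ((if b1 then z else 1) * (if b2 then u else 1) * v) * i⁻¹
              = (i * (if b1 then z else 1) * i⁻¹) * (i * (if b2 then u else 1) * i⁻¹) * (i * v * i⁻¹) := by group
            _ = _ := by
                rw [show i * (if b1 then z else 1) * i⁻¹ = (if b1 then z else 1) by cases b1 <;> simp [iz],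
                  show i * (if b2 then u else 1) * i⁻¹ = (if b2 then u else 1) by cases b2 <;> simp [ci], iv,
                  mul_assoc _ v z]
        simp only [if_true] at hr
        rw [hr, mul_one, mul_inv_cancel, one_mul] at this
        exact this.symm
    subst e3
    simp only [Bool.false_eq_true, if_false, mul_one] at hr
    have e2 : b2 = false := by
      cases b2
      · rfl
      · exfalso
        apply P.z1
        have : j * ((if b1 then z else 1) * u) * j⁻¹ = (if b1 then z else 1) * u * z := by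
          calc j * ((if b1 then z else 1) * u) * j⁻¹
              = (j * (if b1 then z else 1) * j⁻¹) * (j * u * j⁻¹) := by group
            _ = _ := by
                rw [show j * (if b1 then z else 1) * j⁻¹ = (if b1 then z else 1) by cases b1 <;> simp [jz], ju,
                  mul_assoc _ u z]
        simp only [if_true] at hr
        rw [hr, mul_one, mul_inv_cancel, one_mul] at this
        exact this.symm
    subst e2
    simp only [Bool.false_eq_true, if_false, mul_one] at hr
    cases b1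
    · rfl
    · simp [P.z1] at hr
  have hA8 : Nat.card A = 8 := by
    have : Nat.card (Set.range mk) = 8 := by rw [Nat.card_range_of_injective hmkinj]; simp
    exact this
  by_cases hC : Subgroup.centralizer (A : Set S) = A
  · exact Or.inl ⟨A, hA, hA8, hC⟩
  refine Or.inr ?_
  set N := Subgroup.normalizer (A : Set S)
  have hAC : A ≤ Subgroup.centralizer (A : Set S) := fun a ha =>
    Subgroup.mem_centralizer_iff.2 fun b hb => hA.comm hb ha
  have hCN : Subgroup.centralizer (A : Set S) ≤ N := fun c hc => Subgroup.mem_normalizer_iff.2 fun b => by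
    constructor
    · intro hb; rwa [← Subgroup.mem_centralizer_iff.1 hc b hb, mul_inv_cancel_right]
    · intro hb
      have := Subgroup.mem_centralizer_iff.1 hc _ hb
      have e : b = c * b * c⁻¹ := mul_left_cancel (a := c) (by
        calc c * b = c * b * c⁻¹ * c := by group
          _ = c * (c * b * c⁻¹) := this)
      exact e ▸ hb
  have hnorm : ∀ {g : S}, (∀ p, g * mk p * g⁻¹ ∈ A) → g ∈ N := fun {g} h => by
    let : Fintype A := Fintype.ofFinite A
    refine Subgroup.mem_normalizer_iff.2 fun b => ⟨fun ⟨p, hp⟩ => hp ▸ h p, fun hb => ?_⟩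
    obtain ⟨y, hy⟩ := (Finite.injective_iff_surjective (f := fun a : A => (⟨g * a.1 * g⁻¹, by
        obtain ⟨p, hp⟩ := a.2; exact hp ▸ h p⟩ : A))).1
      (fun a b e => Subtype.ext (mul_left_cancel (mul_right_cancel (congrArg (fun w : A => w.1) e))))
      ⟨_, hb⟩
    have : y.1 = b := mul_left_cancel (mul_right_cancel (congrArg (fun w : A => w.1) hy))
    exact this ▸ y.2
  have hzconj : ∀ {g : S}, Commute z g → g * z * g⁻¹ = z := fun h => by rw [← h.eq, mul_inv_cancel_right]
  have hiN : i ∈ N := hnorm fun p => by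
    rw [show i * mk p * i⁻¹ = (i * (if p.1 then z else 1) * i⁻¹) * (i * (if p.2.1 then u else 1) * i⁻¹) *
      (i * (if p.2.2 then v else 1) * i⁻¹) by simp only [mk]; group]
    refine A.mul_mem (A.mul_mem ?_ ?_) ?_ <;> split_ifs <;>
      simp [hzconj P.zi, ci, iv, hzA, huA, A.mul_mem hvA hzA, A.one_mem]
  have hjN : j ∈ N := hnorm fun p => by
    rw [show j * mk p * j⁻¹ = (j * (if p.1 then z else 1) * j⁻¹) * (j * (if p.2.1 then u else 1) * j⁻¹) *
      (j * (if p.2.2 then v else 1) * j⁻¹) by simp only [mk]; group]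
    refine A.mul_mem (A.mul_mem ?_ ?_) ?_ <;> split_ifs <;>
      simp [hzconj P.zj, ju, cj, hzA, hvA, A.mul_mem huA hzA, A.one_mem]
  haveI h1 : (A.subgroupOf N).Normal := ⟨fun n hn g => by
    rw [Subgroup.mem_subgroupOf] at hn ⊢
    exact (Subgroup.mem_normalizer_iff.1 g.2 n.1).1 hn⟩
  haveI h3 : ((Subgroup.centralizer (A : Set S)).subgroupOf N).Normal := ⟨fun n hn g => by
    rw [Subgroup.mem_subgroupOf] at hn ⊢
    refine Subgroup.mem_centralizer_iff.2 fun b hb => ?_
    have hb' : (g.1)⁻¹ * b * g.1 ∈ A := by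
      have := (Subgroup.mem_normalizer_iff.1 (N.inv_mem g.2) b).1 hb
      rwa [inv_inv] at this
    have := Subgroup.mem_centralizer_iff.1 hn _ hb'
    show b * (g.1 * n.1 * (g.1)⁻¹) = g.1 * n.1 * (g.1)⁻¹ * b
    calc b * (g.1 * n.1 * (g.1)⁻¹) = g.1 * ((g.1)⁻¹ * b * g.1 * n.1) * (g.1)⁻¹ := by group
      _ = g.1 * (n.1 * ((g.1)⁻¹ * b * g.1)) * (g.1)⁻¹ := by rw [this]
      _ = _ := by group⟩
  have hlt : A.subgroupOf N < (Subgroup.centralizer (A : Set S)).subgroupOf N := by
    refine lt_of_le_of_ne (fun n hn => hAC hn) fun e => hC (le_antisymm (fun c hc => ?_) hAC)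
    have : (⟨c, hCN hc⟩ : N) ∈ A.subgroupOf N := e ▸ hc
    exact this
  obtain ⟨⟨x, hxN⟩, hxC, hxA, -, hxc⟩ := exists_central_mod (h2.to_subgroup N) _ _ hlt
  have hxCA : ∀ b ∈ A, b * x = x * b := Subgroup.mem_centralizer_iff.1 hxC
  have hxA' : x ∉ A := hxA
  have himg : ∀ {s : S}, s ∈ N → ∃ b ∈ A, x * s * x⁻¹ = b * s := fun {s} hs => by
    have h' : x⁻¹ * (s * x * s⁻¹) ∈ A := hxc ⟨s, hs⟩
    refine ⟨(x⁻¹ * (s * x * s⁻¹))⁻¹, A.inv_mem h', ?_⟩
    have h'' := hxCA _ h'
    rw [show x * s * x⁻¹ = (x * (x⁻¹ * (s * x * s⁻¹)) * x⁻¹)⁻¹ * s by group, ← h'', mul_inv_cancel_right]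
  have hxz : x * z * x⁻¹ = z := by rw [← hxCA z hzA, mul_inv_cancel_right]
  have hsq : ∀ {s b : S}, s * s = z → x * s * x⁻¹ = b * s → b ∈ A → b * s = s * b := fun {s b} hs e hb => by
    have h' : b * s * (b * s) = s * s := by rw [← e, conj_mul, hs, hxz]
    have h'' : b * s * b = s := mul_right_cancel (by rw [← h']; group : b * s * b * s = s * s)
    calc b * s = b * s * (b * b) := by rw [hA.mul_self hb, mul_one]
      _ = s * b := by rw [← mul_assoc, h'']
  have hcase : ∀ {b : S}, b ∈ A → ∀ (s : S) (w w' : S), Commute z s → s * w * s⁻¹ = w →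
      s * w' * s⁻¹ = w' * z → (∀ p, ∃ b1 b2 b3 : Bool, mk p = (if b1 then z else 1) * (if b2 then w else 1) *
        (if b3 then w' else 1)) → b * s = s * b → b = 1 ∨ b = z ∨ b = w ∨ b = z * w := by
    intro b hb s w w' hzs hw hw' hform hbs
    obtain ⟨p, rfl⟩ := hb
    obtain ⟨b1, b2, b3, hp⟩ := hform p
    rw [hp] at hbs ⊢
    cases b3
    · cases b1 <;> cases b2 <;> simp
    · exfalso
      apply P.z1
      set r := (if b1 then z else 1) * (if b2 then w else 1) * w' with hr
      have : s * r * s⁻¹ = r * z := by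
        calc s * r * s⁻¹ = (s * (if b1 then z else 1) * s⁻¹) * (s * (if b2 then w else 1) * s⁻¹) * (s * w' * s⁻¹) := by
              rw [hr]; group
          _ = _ := by
              rw [show s * (if b1 then z else 1) * s⁻¹ = (if b1 then z else 1) by cases b1 <;> simp [hzconj hzs],
                show s * (if b2 then w else 1) * s⁻¹ = (if b2 then w else 1) by cases b2 <;> simp [hw], hw', hr,
                mul_assoc _ w' z]
      simp only [if_true] at hbs
      rw [← hr] at hbs
      rw [← hbs, mul_inv_cancel_right] at this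
      exact (mul_eq_left.1 this.symm)
  obtain ⟨bi, hbi, ei⟩ := himg hiN
  obtain ⟨bj, hbj, ej⟩ := himg hjN
  have hui : u * i = i' * z := by rw [hu, mul_assoc, ← P.c11.eq, ← mul_assoc, P.ii, P.zi'.eq]
  have hvj : v * j = j' * z := by rw [hv, mul_assoc, ← P.c22.eq, ← mul_assoc, P.jj, P.zj'.eq]
  have hxi : Pm z (x * i * x⁻¹) i ∨ Pm z (x * i * x⁻¹) i' := by
    rcases hcase hbi i u v P.zi ci iv (fun p => ⟨_, _, _, rfl⟩) (hsq P.ii ei hbi) with r | r | r | r <;>
      rw [r] at ei
    · exact Or.inl (Or.inl (by rw [ei, one_mul]))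
    · exact Or.inl (Or.inr (by rw [ei, P.zi.eq]))
    · exact Or.inr (Or.inr (by rw [ei, hui]))
    · exact Or.inr (Or.inl (by rw [ei, mul_assoc, hui, ← P.zi'.eq, ← mul_assoc, P.zz, one_mul]))
  have hxj : Pm z (x * j * x⁻¹) j ∨ Pm z (x * j * x⁻¹) j' := by
    rcases hcase hbj j v u P.zj cj ju (fun p => ⟨p.1, p.2.2, p.2.1, by
      obtain ⟨b1, b2, b3⟩ := p
      show (if b1 then z else 1) * (if b2 then u else 1) * (if b3 then v else 1) = _
      rw [mul_assoc, mul_assoc, hcomm (if b2 then u else 1) (by split_ifs; exacts [huG, G.one_mem])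
        (if b3 then v else 1) (by split_ifs; exacts [hvG, G.one_mem])]⟩) (hsq P.jj ej hbj) with r | r | r | r <;>
      rw [r] at ej
    · exact Or.inl (Or.inl (by rw [ej, one_mul]))
    · exact Or.inl (Or.inr (by rw [ej, P.zj.eq]))
    · exact Or.inr (Or.inr (by rw [ej, hvj]))
    · exact Or.inr (Or.inl (by rw [ej, mul_assoc, hvj, ← P.zj'.eq, ← mul_assoc, P.zz, one_mul]))
  have anti : ∀ {a b : S}, Commute a b → Pm z (x * i * x⁻¹) a → Pm z (x * j * x⁻¹) b → Commute z a →
      Commute z b → False := fun {a b} hab ha hb hza hzb => by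
    have hc : Commute (x * i * x⁻¹) (x * j * x⁻¹) := by
      rcases ha with r | r <;> rcases hb with r' | r' <;> rw [r, r']
      exacts [hab, hab.mul_right hza.symm, hab.mul_left hzb,
        (hab.mul_left hzb).mul_right (hza.symm.mul_left (Commute.refl z))]
    have h' : i * j = j * i := by
      have := hc.eq
      rw [conj_mul, conj_mul] at this
      exact mul_left_cancel (mul_right_cancel this)
    rw [P.ji] at h'
    exact P.z1 (mul_eq_left.1 h'.symm)
  rcases hxi with hi1 | hi2 <;> rcases hxj with hj1 | hj2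
  · exfalso
    have hcorr : ∀ (s w : S), Commute z s → w * w = 1 → s * w * s⁻¹ = w * z → w * s * w⁻¹ = s * z := by
      intro s w hzs hw e
      rw [inv_eq_of_mul_eq_one_right hw]
      calc w * s * w = w * (s * w * s⁻¹) * s := by group
        _ = s * z := by rw [e, ← mul_assoc, hw, one_mul, hzs.eq]
    have hvi : v * i * v⁻¹ = i * z := hcorr i v P.zi vv iv
    have huj : u * j * u⁻¹ = j * z := hcorr j u P.zj uu ju
    have hvj' : v * j * v⁻¹ = j := by
      rw [(show Commute v j from ((Commute.refl j).mul_right P.c22).symm).eq, mul_inv_cancel_right]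
    have hui' : u * i * u⁻¹ = i := by
      rw [(show Commute u i from ((Commute.refl i).mul_right P.c11).symm).eq, mul_inv_cancel_right]
    obtain ⟨y, hyA, hyi, hyj⟩ : ∃ y ∈ A, y * (x * i * x⁻¹) * y⁻¹ = i ∧ y * (x * j * x⁻¹) * y⁻¹ = j := by
      have hz' : ∀ {y s : S}, y ∈ A → y * s * y⁻¹ = s * z → y * (s * z) * y⁻¹ = s := fun {y s} hy e => by
        rw [← conj_mul, e, ← hA.comm hzA hy, mul_inv_cancel_right, mul_assoc, P.zz, mul_one]
      have hz0 : ∀ {y s : S}, y ∈ A → y * s * y⁻¹ = s → y * (s * z) * y⁻¹ = s * z := fun {y s} hy e => by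
        rw [← conj_mul, e, ← hA.comm hzA hy, mul_inv_cancel_right]
      rcases hi1 with r | r <;> rcases hj1 with r' | r' <;> rw [r, r']
      · exact ⟨1, A.one_mem, by group, by group⟩
      · exact ⟨u, huA, hui', hz' huA huj⟩
      · exact ⟨v, hvA, hz' hvA hvi, hvj'⟩
      · refine ⟨u * v, A.mul_mem huA hvA, ?_, ?_⟩
        · calc u * v * (i * z) * (u * v)⁻¹ = u * (v * (i * z) * v⁻¹) * u⁻¹ := by group
            _ = i := by rw [hz' hvA hvi, hui']
        · calc u * v * (j * z) * (u * v)⁻¹ = u * (v * (j * z) * v⁻¹) * u⁻¹ := by group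
            _ = j := by rw [hz0 hvA hvj', hz' huA huj]
    have hw : ∀ {s}, y * (x * s * x⁻¹) * y⁻¹ = s → Commute (y * x) s := fun {s} e => by
      refine mul_inv_eq_iff_eq_mul.1 (?_ : y * x * s * (y * x)⁻¹ = s)
      calc y * x * s * (y * x)⁻¹ = y * (x * s * x⁻¹) * y⁻¹ := by group
        _ = s := e
    have hcA : ∀ b ∈ A, Commute (y * x) b := fun b hb =>
      (show Commute y b from hA.comm hyA hb).mul_left (show Commute x b from (hxCA b hb).symm)
    have ci' : Commute (y * x) i' := by simpa [hu] using (hw hyi).inv_right.mul_right (hcA u huA)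
    have cj' : Commute (y * x) j' := by simpa [hv] using (hw hyj).inv_right.mul_right (hcA v hvA)
    have := P.cent _ (hw hyi) (hw hyj) ci' cj'
    refine hxA' ((A.mul_mem_cancel_left hyA).1 ?_)
    rcases this with r | r <;> rw [r]
    exacts [A.one_mem, hzA]
  · exact (anti P.c12 hi1 hj2 P.zi P.zj').elim
  · exact (anti P.c21.symm hi2 hj1 P.zi' P.zj).elim
  · refine ⟨x, hxz, hi2, hj2, ?_, ?_⟩
    · have e : x * i' * x⁻¹ = (x * i * x⁻¹)⁻¹ * u := by
        calc x * i' * x⁻¹ = x * (i⁻¹ * u) * x⁻¹ := by rw [hu, inv_mul_cancel_left]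
          _ = (x * i * x⁻¹)⁻¹ * (x * u * x⁻¹) := by group
          _ = _ := by rw [← hxCA u huA, mul_inv_cancel_right]
      rcases hi2 with r | r <;> rw [e, r]
      · exact Or.inl (by rw [hu, P.c11.eq, inv_mul_cancel_left])
      · exact Or.inr (by
          rw [hu, mul_inv_rev, P.inv_z, P.c11.eq, mul_assoc, inv_mul_cancel_left, P.zi.eq])
    · have e : x * j' * x⁻¹ = (x * j * x⁻¹)⁻¹ * v := by
        calc x * j' * x⁻¹ = x * (j⁻¹ * v) * x⁻¹ := by rw [hv, inv_mul_cancel_left]
          _ = (x * j * x⁻¹)⁻¹ * (x * v * x⁻¹) := by group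
          _ = _ := by rw [← hxCA v hvA, mul_inv_cancel_right]
      rcases hj2 with r | r <;> rw [e, r]
      · exact Or.inl (by rw [hv, P.c22.eq, inv_mul_cancel_left])
      · exact Or.inr (by
          rw [hv, mul_inv_rev, P.inv_z, P.c22.eq, mul_assoc, inv_mul_cancel_left, P.zj.eq])

/-- One of the two planes is self-centralising. -/
theorem exists_eight (h2 : IsPGroup 2 S) :
    ∃ A : Subgroup S, Elem A ∧ Nat.card A = 8 ∧ Subgroup.centralizer (A : Set S) = A := by
  rcases P.plane h2 with h | ⟨x, xz, -, -, xi', xj'⟩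
  · exact h
  rcases P.twist.plane h2 with h | ⟨y, yz, yi, yj, -, -⟩
  · exact h
  exfalso
  have hcomp : ∀ {g a b : S}, g * z * g⁻¹ = z → Pm z (g * a * g⁻¹) b → ∀ {c}, Pm z c a →
      Pm z (g * c * g⁻¹) b := fun {g a b} hz h {c} hc => by
    rcases hc with rfl | rfl
    · exact h
    · rw [← conj_mul, hz]
      rcases h with r | r <;> rw [r]
      exacts [Or.inr rfl, Or.inl (by rw [mul_assoc, P.zz, mul_one])]
  set X := x * y
  have hXz : X * z * X⁻¹ = z := by
    calc x * y * z * (x * y)⁻¹ = x * (y * z * y⁻¹) * x⁻¹ := by group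
      _ = z := by rw [yz, xz]
  have hsplit : ∀ a, X * a * X⁻¹ = x * (y * a * y⁻¹) * x⁻¹ := fun a => by simp only [X]; group
  have X1 : Pm z (X * i * X⁻¹) j := by rw [hsplit]; exact hcomp xz xj' yi
  have xk : Pm z (x * (i' * j') * x⁻¹) (i * j) := by
    rw [← conj_mul]
    rcases xi' with r | r <;> rcases xj' with r' | r' <;> rw [r, r']
    · exact Or.inl rfl
    · exact Or.inr (mul_assoc _ _ _).symm
    · exact Or.inr (by rw [mul_assoc i z j, P.zj.eq, mul_assoc])
    · exact Or.inl (by
        rw [mul_assoc i z (j * z), ← mul_assoc z j z, P.zj.eq, mul_assoc j z z, P.zz, mul_one])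
  have X2 : Pm z (X * j * X⁻¹) (i * j) := by rw [hsplit]; exact hcomp xz xk yj
  have X3 : Pm z (X * (i * j) * X⁻¹) i := by
    rw [← conj_mul]
    have hk : j * (i * j) = i := by
      rw [← mul_assoc, P.ji, mul_assoc _ z, P.zj.eq, ← mul_assoc, mul_assoc i j j, P.jj, mul_assoc, P.zz, mul_one]
    rcases X1 with r | r <;> rcases X2 with r' | r' <;> rw [r, r']
    · exact Or.inl hk
    · exact Or.inr (by rw [← mul_assoc, hk])
    · exact Or.inr (by rw [mul_assoc j z, (P.zi.mul_right P.zj).eq, ← mul_assoc, hk])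
    · exact Or.inl (by
        rw [mul_assoc j z, ← mul_assoc z (i * j) z, (P.zi.mul_right P.zj).eq, mul_assoc (i * j) z z, P.zz, mul_one, hk])
  have h13 : Pm z (X ^ 3 * i * (X ^ 3)⁻¹) i := by
    rw [show X ^ 3 * i * (X ^ 3)⁻¹ = X * (X * (X * i * X⁻¹) * X⁻¹) * X⁻¹ by
      simp only [pow_succ, pow_zero, one_mul]; group]
    exact hcomp hXz X3 (hcomp hXz X2 X1)
  have h6 : X ^ 6 ∈ Subgroup.centralizer ({i} : Set S) := by
    rw [Subgroup.mem_centralizer_iff]
    intro w hw
    rw [Set.mem_singleton_iff.1 hw]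
    have hz3 : X ^ 3 * z * (X ^ 3)⁻¹ = z := by
      rw [show X ^ 3 * z * (X ^ 3)⁻¹ = X * (X * (X * z * X⁻¹) * X⁻¹) * X⁻¹ by
        simp only [pow_succ, pow_zero, one_mul]; group, hXz, hXz, hXz]
    have : X ^ 6 * i * (X ^ 6)⁻¹ = i := by
      rw [show X ^ 6 * i * (X ^ 6)⁻¹ = X ^ 3 * (X ^ 3 * i * (X ^ 3)⁻¹) * (X ^ 3)⁻¹ by
        rw [show (6 : ℕ) = 3 + 3 from rfl, pow_add]; group]
      rcases h13 with r | r
      · rw [r, r]
      · rw [r, ← conj_mul, hz3, r, mul_assoc, P.zz, mul_one]
    exact (mul_inv_eq_iff_eq_mul.1 this).symm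
  obtain ⟨n, hn⟩ := h2 X
  have hord : orderOf X ∣ 2 ^ n := orderOf_dvd_of_pow_eq_one hn
  have h2' : X ^ 2 ∈ Subgroup.centralizer ({i} : Set S) := by
    have hcop : Nat.Coprime 3 (orderOf (X ^ 2)) :=
      Nat.Coprime.coprime_dvd_right ((orderOf_pow_dvd 2).trans hord) (Nat.Coprime.pow_right n (by norm_num))
    obtain ⟨m, hm⟩ := exists_pow_eq_self_of_coprime hcop
    rw [← hm, ← pow_mul X 2 3]
    exact pow_mem h6 m
  have h2'' := Subgroup.mem_centralizer_iff.1 h2' i rfl
  have hpm : Pm z (X ^ 2 * i * (X ^ 2)⁻¹) (i * j) := by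
    rw [show X ^ 2 * i * (X ^ 2)⁻¹ = X * (X * i * X⁻¹) * X⁻¹ by simp only [pow_succ, pow_zero, one_mul]; group]
    exact hcomp hXz X2 X1
  rw [← h2'', mul_inv_cancel_right] at hpm
  have hj : Commute i j := by
    rcases hpm with r | r
    · rw [mul_eq_left.1 r.symm]; exact Commute.one_right i
    · have r' : j * z = 1 := mul_eq_left.1 (by rw [← mul_assoc]; exact r.symm)
      rw [eq_inv_of_mul_eq_one_left r']
      exact P.zi.symm.inv_right
  have e := P.ji
  rw [← hj.eq] at e
  exact P.z1 (mul_eq_left.1 e.symm)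

end Quads

end Cfsg.Agent.TwoGroups.SelfCentralEight
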