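import Cfsg.Agent.TwoGroups.NormalRankTwo.Main

/-! Tools for 2-groups with a self-centralising elementary abelian subgroup of order eight. -/

set_option autoImplicit false
set_option linter.unusedSectionVars false

namespace Cfsg.Agent.TwoGroups.SelfCentralEight

open NormalRankTwo

variable {S : Type*} [Group S] [Finite S]

/-- Elementary abelian, in the elementwise form. -/
def Elem (E : Subgroup S) : Prop := (∀ a ∈ E, ∀ b ∈ E, a * b = b * a) ∧ ∀ a ∈ E, a ^ 2 = 1

theorem Elem.mul_self {E : Subgroup S} (hE : Elem E) {e : S} (he : e ∈ E) : e * e = 1 := by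
  rw [← pow_two, hE.2 e he]

theorem Elem.inv_eq {E : Subgroup S} (hE : Elem E) {e : S} (he : e ∈ E) : e⁻¹ = e :=
  inv_eq_of_mul_eq_one_right (hE.mul_self he)

theorem Elem.comm {E : Subgroup S} (hE : Elem E) {d e : S} (hd : d ∈ E) (he : e ∈ E) : d * e = e * d :=
  hE.1 d hd e he

/-- The commutator with an involution, as used throughout. -/
def com (a h : S) : S := h⁻¹ * (a * h * a)

theorem com_inverted {a : S} (ha : a * a = 1) (h : S) : a * com a h * a = (com a h)⁻¹ := by
  have hai : a⁻¹ = a := inv_eq_of_mul_eq_one_right ha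
  simp only [com, mul_inv_rev, inv_inv, hai, mul_assoc, ha, mul_one]

/-- An involution acting on a proper extension fixes a nontrivial coset. -/
theorem exists_fixed_coset (h2 : IsPGroup 2 S) {b : S} (hb : b * b = 1) {N L : Subgroup S} (hNL : N < L)
    (hLN : ∀ l ∈ L, ∀ n ∈ N, l * n * l⁻¹ ∈ N) (hN : ∀ n ∈ N, b * n * b ∈ N) (hL : ∀ l ∈ L, b * l * b ∈ L) :
    ∃ x ∈ L, x ∉ N ∧ com b x ∈ N := by
  classical
  haveI : Fact (Nat.Prime 2) := ⟨Nat.prime_two⟩
  have hn : (N.subgroupOf L).Normal := ⟨fun n hn l => by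
    rw [Subgroup.mem_subgroupOf]
    exact hLN l.1 l.2 n.1 (Subgroup.mem_subgroupOf.1 hn)⟩
  haveI := Fintype.ofFinite (L ⧸ N.subgroupOf L)
  let q : L → L ⧸ N.subgroupOf L := QuotientGroup.mk
  let f : L ⧸ N.subgroupOf L → L ⧸ N.subgroupOf L := Quotient.map' (fun l => ⟨b * l.1 * b, hL l.1 l.2⟩) (by
    intro l l' hll
    rw [QuotientGroup.leftRel_apply, Subgroup.mem_subgroupOf] at hll ⊢
    have := hN _ hll
    have hbi : b⁻¹ = b := inv_eq_of_mul_eq_one_right hb
    simp only [Subgroup.coe_mul, Subgroup.coe_inv, mul_inv_rev, hbi] at this ⊢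
    rwa [show b * ((l.1)⁻¹ * b) * (b * l'.1 * b) = b * ((l.1)⁻¹ * l'.1) * b by
      simp only [mul_assoc]; rw [← mul_assoc b b, hb, one_mul]])
  have hf : Function.Involutive f := by
    intro x
    induction x using Quotient.inductionOn' with
    | h l =>
      refine congrArg Quotient.mk'' (Subtype.ext ?_)
      show b * (b * l.1 * b) * b = l.1
      simp only [mul_assoc]; rw [← mul_assoc b b, hb, one_mul, mul_one]
  have hdvd : 2 ∣ Fintype.card (L ⧸ N.subgroupOf L) := by
    rw [← Nat.card_eq_fintype_card]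
    refine Nat.dvd_of_mem_primeFactors ?_ |> fun h => h
    obtain ⟨k, hk⟩ := ((h2.to_subgroup L).to_quotient (N.subgroupOf L)).exists_card_eq
    rcases Nat.eq_zero_or_pos k with rfl | hk0
    · rw [pow_zero] at hk
      refine absurd ?_ hNL.ne
      have := (Subgroup.index_eq_one (H := N.subgroupOf L)).1 hk
      exact le_antisymm hNL.le (Subgroup.subgroupOf_eq_top.1 this)
    · rw [hk, Nat.primeFactors_prime_pow hk0.ne' Nat.prime_two]; exact Finset.mem_singleton_self _
  have hσ : (Function.Involutive.toPerm f hf) ^ 2 ^ 1 = 1 := Equiv.ext fun x => by simp [pow_succ, hf x]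
  have h1 : (Function.Involutive.toPerm f hf) (1 : L ⧸ N.subgroupOf L) = 1 := by
    refine congrArg Quotient.mk'' (Subtype.ext ?_)
    show b * 1 * b = 1
    rw [mul_one, hb]
  obtain ⟨y, hy, hy1⟩ := Equiv.Perm.exists_fixed_point_of_prime' hdvd hσ h1
  induction y using Quotient.inductionOn' with
  | h l =>
    refine ⟨l.1, l.2, fun hlN => hy1 ?_, ?_⟩
    · exact (QuotientGroup.eq_one_iff l).2 (Subgroup.mem_subgroupOf.2 hlN)
    · have := (QuotientGroup.eq (s := N.subgroupOf L)).1 hy.symm
      exact Subgroup.mem_subgroupOf.1 this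

/-- A normal subgroup above another contains an element central modulo it. -/
theorem exists_central_mod (h2 : IsPGroup 2 S) (N L : Subgroup S) [N.Normal] [L.Normal] (hNL : N < L) :
    ∃ c ∈ L, c ∉ N ∧ c ^ 2 ∈ N ∧ ∀ s : S, c⁻¹ * (s * c * s⁻¹) ∈ N := by
  classical
  haveI : Fact (Nat.Prime 2) := ⟨Nat.prime_two⟩
  haveI : Group.IsNilpotent (S ⧸ N) := (h2.to_quotient N).isNilpotent
  haveI : (L.map (QuotientGroup.mk' N)).Normal :=
    Subgroup.Normal.map inferInstance _ (QuotientGroup.mk'_surjective N)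
  have hne : L.map (QuotientGroup.mk' N) ≠ ⊥ := by
    rw [Ne, Subgroup.map_eq_bot_iff, QuotientGroup.ker_mk']
    exact not_le_of_gt hNL
  obtain ⟨u, hu, hu1, huc⟩ := OddLocal.exists_ne_one_mem_center_of_normal _ hne
  obtain ⟨c, hc, rfl⟩ := hu
  obtain ⟨k, hk⟩ := h2 c
  have hex : ∃ j, c ^ 2 ^ j ∈ N := ⟨k, by rw [hk]; exact N.one_mem⟩
  obtain ⟨j, hj⟩ : ∃ j, Nat.find hex = j + 1 := by
    refine ⟨Nat.find hex - 1, (Nat.succ_pred_eq_of_pos (Nat.pos_of_ne_zero fun h0 => hu1 ?_)).symm⟩
    have := Nat.find_spec hex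
    rw [h0, pow_zero, pow_one] at this
    exact (QuotientGroup.eq_one_iff c).2 this
  refine ⟨c ^ 2 ^ j, pow_mem hc _, Nat.find_min hex (by omega), ?_, fun s => ?_⟩
  · rw [← pow_mul, ← pow_succ, ← hj]; exact Nat.find_spec hex
  · rw [← QuotientGroup.eq]
    show QuotientGroup.mk' N (c ^ 2 ^ j) = QuotientGroup.mk' N (s * c ^ 2 ^ j * s⁻¹)
    have hcm := Subgroup.mem_center_iff.1 (pow_mem huc (2 ^ j)) (QuotientGroup.mk' N s)
    rw [map_mul, map_mul, map_inv, map_pow, hcm, mul_inv_cancel_right]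

/-- An involution on an elementary abelian group: the fixed points are at least the square root. -/
theorem card_le_fixed_sq {E : Subgroup S} (hE : Elem E) {b : S} (hb : b * b = 1) (hEb : ∀ e ∈ E, b * e * b ∈ E) :
    ∃ C : Subgroup S, (∀ e, e ∈ C ↔ e ∈ E ∧ b * e * b = e) ∧ (∀ e ∈ E, com b e ∈ C) ∧
      ∃ I : Subgroup S, I ≤ C ∧ (∀ x, x ∈ I ↔ ∃ e ∈ E, com b e = x) ∧ Nat.card E = Nat.card I * Nat.card C := by
  classical
  have hbb : ∀ x : S, b * (b * x) = x := fun x => by rw [← mul_assoc, hb, one_mul]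
  have hsplit : ∀ x y : S, b * (x * y) * b = b * x * b * (b * y * b) := fun x y => by simp only [mul_assoc, hbb]
  let φ : E →* S := MonoidHom.mk' (fun e => com b e.1) fun x y => by
    simp only [com, Subgroup.coe_mul, mul_inv_rev, hsplit]
    calc (y.1)⁻¹ * (x.1)⁻¹ * (b * x.1 * b * (b * y.1 * b))
        = (y.1)⁻¹ * ((x.1)⁻¹ * (b * x.1 * b)) * (b * y.1 * b) := by group
      _ = (x.1)⁻¹ * (b * x.1 * b) * (y.1)⁻¹ * (b * y.1 * b) := by
          rw [hE.comm (E.inv_mem y.2) (E.mul_mem (E.inv_mem x.2) (hEb _ x.2))]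
      _ = _ := by group
  have hker : ∀ e : E, e ∈ φ.ker ↔ b * e.1 * b = e.1 := fun e => by
    rw [MonoidHom.mem_ker]
    show (e.1)⁻¹ * (b * e.1 * b) = 1 ↔ _
    rw [inv_mul_eq_one, eq_comm]
  refine ⟨φ.ker.map E.subtype, fun e => ⟨?_, fun h => ⟨⟨e, h.1⟩, (hker _).2 h.2, rfl⟩⟩, fun e he => ?_,
    φ.range, ?_, fun x => ⟨fun ⟨e, h⟩ => ⟨e.1, e.2, h⟩, fun ⟨e, he, h⟩ => ⟨⟨e, he⟩, h⟩⟩, ?_⟩
  · rintro ⟨x, hx, rfl⟩
    exact ⟨x.2, (hker x).1 hx⟩
  · refine ⟨⟨com b e, E.mul_mem (E.inv_mem he) (hEb e he)⟩, (hker _).2 ?_, rfl⟩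
    show b * com b e * b = com b e
    rw [com_inverted hb, hE.inv_eq]
    exact E.mul_mem (E.inv_mem he) (hEb e he)
  · rintro _ ⟨e, rfl⟩
    refine ⟨⟨com b e.1, E.mul_mem (E.inv_mem e.2) (hEb _ e.2)⟩, (hker _).2 ?_, rfl⟩
    show b * com b e.1 * b = com b e.1
    rw [com_inverted hb, hE.inv_eq]
    exact E.mul_mem (E.inv_mem e.2) (hEb _ e.2)
  · have h := Subgroup.card_eq_card_quotient_mul_card_subgroup φ.ker
    rw [Nat.card_congr (QuotientGroup.quotientKerEquivRange φ).toEquiv] at h
    rw [h, ← Nat.card_congr (Subgroup.equivMapOfInjective φ.ker E.subtype E.subtype_injective).toEquiv]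

/-- A section of exponent two against a normal subgroup. -/
theorem section_split (N H : Subgroup S) [N.Normal] {Q : Type*} [Group Q] [Finite Q] (ψ : H →* Q)
    (hψ : Function.Surjective ψ) :
    Nat.card Q ≤ Nat.card (H.map (QuotientGroup.mk' N)) * Nat.card ((N.subgroupOf H).map ψ) ∧
    ((∃ h ∈ ψ.ker, h.1 ∉ N) → Nat.card Q * 2 ≤
      Nat.card (H.map (QuotientGroup.mk' N)) * Nat.card ((N.subgroupOf H).map ψ)) := by
  have h := exchange ((QuotientGroup.mk' N).comp H.subtype) ψ
  rw [show ((QuotientGroup.mk' N).comp H.subtype).range = H.map (QuotientGroup.mk' N) by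
      rw [MonoidHom.range_comp, Subgroup.range_subtype],
    show ((QuotientGroup.mk' N).comp H.subtype).ker = N.subgroupOf H by
      rw [← MonoidHom.comap_ker, QuotientGroup.ker_mk']; rfl,
    MonoidHom.range_eq_top.2 hψ, Nat.card_congr Subgroup.topEquiv.toEquiv] at h
  refine ⟨?_, fun ⟨x, hx, hxN⟩ => ?_⟩
  · rw [← h]; exact Nat.le_mul_of_pos_right _ Nat.card_pos
  · rw [← h]
    refine Nat.mul_le_mul_left _ (Nat.succ_le_of_lt (Finite.one_lt_card_iff_nontrivial.2 ?_))
    rw [Subgroup.nontrivial_iff_ne_bot]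
    intro hb
    have := Subgroup.mem_map_of_mem ((QuotientGroup.mk' N).comp H.subtype) hx
    rw [hb, Subgroup.mem_bot] at this
    exact hxN ((QuotientGroup.eq_one_iff _).1 this)

/-- Commutators lie in the kernel of a section of exponent two. -/
theorem comm_mem_ker {H : Subgroup S} {Q : Type*} [Group Q] (ψ : H →* Q) (hQ : ∀ q : Q, q ^ 2 = 1) (h k : H) :
    h⁻¹ * k⁻¹ * h * k ∈ ψ.ker := by
  rw [MonoidHom.mem_ker, map_mul, map_mul, map_mul, map_inv, map_inv,
    mul_self_of_exp_two hQ (ψ h)⁻¹ (ψ k)⁻¹, inv_mul_cancel_right, inv_mul_cancel]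

/-- The action on a normal elementary subgroup of order eight. -/
theorem action_on_eight (h2 : IsPGroup 2 S) {E : Subgroup S} [E.Normal] (hE : Elem E) (hE8 : Nat.card E = 8) :
    (Subgroup.centralizer (E : Set S)).index ≤ 8 ∧
    ((Subgroup.centralizer (E : Set S)).index = 8 →
      ∃ h k : S, h⁻¹ * k⁻¹ * h * k ∉ Subgroup.centralizer (E : Set S)) := by
  classical
  haveI : Fact (Nat.Prime 2) := ⟨Nat.prime_two⟩
  haveI : Group.IsNilpotent S := h2.isNilpotent
  have hne : E ≠ ⊥ := fun e => by rw [e, Subgroup.card_bot] at hE8; omega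
  obtain ⟨z, hz, hz1, hzc⟩ := OddLocal.exists_ne_one_mem_center_of_normal E hne
  rw [Subgroup.mem_center_iff] at hzc
  have zconj : ∀ s : S, s * z * s⁻¹ = z := fun s => by rw [hzc s, mul_inv_cancel_right]
  let Z : Subgroup S :=
    { carrier := {x | x = 1 ∨ x = z}
      one_mem' := Or.inl rfl
      mul_mem' := by
        rintro x y (rfl | rfl) (rfl | rfl)
        · exact Or.inl (one_mul 1)
        · exact Or.inr (one_mul _)
        · exact Or.inr (mul_one _)
        · exact Or.inl (hE.mul_self hz)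
      inv_mem' := by
        rintro x (rfl | rfl)
        · exact Or.inl inv_one
        · exact Or.inr (hE.inv_eq hz) }
  haveI : Z.Normal := ⟨fun x hx s => by
    rcases hx with rfl | rfl
    · exact Or.inl (by group)
    · exact Or.inr (zconj s)⟩
  have hZ2 : Nat.card Z ≤ 2 :=
    (Nat.card_le_card_of_injective (fun x : Z => decide (x.1 = z)) (fun x y e => by
      refine Subtype.ext ?_
      rcases x.2 with hx | hx <;> rcases y.2 with hy | hy <;>
        simp_all [hz1.symm])).trans (by simp)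
  have hZE : Z < E := lt_of_le_of_ne (fun x hx => by rcases hx with rfl | rfl; exacts [E.one_mem, hz])
    fun e => by rw [e] at hZ2; omega
  obtain ⟨w, hw, hwZ, -, hwc⟩ := exists_central_mod h2 Z E hZE
  have hw1 : w ≠ 1 := fun e => hwZ (Or.inl e)
  have hwz : w ≠ z := fun e => hwZ (Or.inr e)
  have hwconj : ∀ s : S, s * w * s⁻¹ = w ∨ s * w * s⁻¹ = w * z := fun s => by
    rcases hwc s with e | e
    · exact Or.inl (inv_mul_eq_one.1 e).symm
    · exact Or.inr (by rw [← e, mul_inv_cancel_left])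
  let W : Subgroup S :=
    { carrier := {x | x ∈ Z ∨ w * x ∈ Z}
      one_mem' := Or.inl Z.one_mem
      mul_mem' := by
        rintro x y (hx | hx) (hy | hy)
        · exact Or.inl (Z.mul_mem hx hy)
        · refine Or.inr ?_
          have := Z.mul_mem hx hy
          rwa [← mul_assoc, hE.comm (hZE.le hx) hw, mul_assoc] at this
        · exact Or.inr (by simpa [mul_assoc] using Z.mul_mem hx hy)
        · refine Or.inl ?_
          have := Z.mul_mem hx hy
          have e : x ∈ E := by simpa using E.mul_mem hw (hZE.le hx) |> fun h => (by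
            rwa [← mul_assoc, hE.mul_self hw, one_mul] at h)
          rwa [show w * x * (w * y) = x * y by
            rw [hE.comm hw e, mul_assoc x w, ← mul_assoc w w, hE.mul_self hw, one_mul]] at this
      inv_mem' := by
        rintro x (hx | hx)
        · exact Or.inl (Z.inv_mem hx)
        · refine Or.inr ?_
          have e : x ∈ E := (E.mul_mem_cancel_left hw).1 (hZE.le hx)
          rwa [hE.inv_eq e] }
  have hWE : W ≤ E := fun x hx => hx.elim (fun h => hZE.le h) fun h => (E.mul_mem_cancel_left hw).1 (hZE.le h)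
  have hW4 : Nat.card W ≤ 4 := by
    refine le_trans (Nat.card_le_card_of_injective
      (fun x : W => (decide (x.1 ∈ Z), decide (x.1 = z ∨ w * x.1 = z))) fun x y e => ?_) (by simp)
    simp only [Prod.mk.injEq, decide_eq_decide] at e
    obtain ⟨e1, e2⟩ := e
    refine Subtype.ext ?_
    have hwzne : ¬ w * z = z := fun h => hw1 (mul_eq_right.1 h)
    by_cases hxZ : x.1 ∈ Z
    · have hyZ := e1.1 hxZ
      rcases hxZ with hx | hx <;> rcases hyZ with hy | hy
      · rw [hx, hy]
      · rw [hx, hy] at e2; simp [hz1.symm, hwz] at e2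
      · rw [hx, hy] at e2; simp [hz1.symm, hwz] at e2
      · rw [hx, hy]
    · have hyZ := fun h => hxZ (e1.2 h)
      rcases x.2.resolve_left hxZ with hx | hx <;> rcases y.2.resolve_left hyZ with hy | hy
      · exact mul_left_cancel (hx.trans hy.symm)
      · have := e2.2 (Or.inr hy)
        rcases this with h | h
        · exact absurd (Or.inr h) hxZ
        · exact absurd (hx.symm.trans h) hz1.symm
      · have := e2.1 (Or.inr hx)
        rcases this with h | h
        · exact absurd (Or.inr h) hyZ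
        · exact absurd (hy.symm.trans h) hz1.symm
      · exact mul_left_cancel (hx.trans hy.symm)
  haveI : W.Normal := ⟨fun x hx s => by
    have hwW : w ∈ W := Or.inr (Or.inl (hE.mul_self hw))
    have hzW : z ∈ W := Or.inl (Or.inr rfl)
    have hzs : ∀ u ∈ Z, s * u * s⁻¹ ∈ W := fun u hu => by
      rcases hu with rfl | rfl
      · rw [mul_one, mul_inv_cancel]; exact W.one_mem
      · rw [zconj]; exact hzW
    rcases hx with hx | hx
    · exact hzs x hx
    · have h1 := hzs _ hx
      have h2' : s * w * s⁻¹ ∈ W := by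
        rcases hwconj s with e | e <;> rw [e]
        exacts [hwW, W.mul_mem hwW hzW]
      have := W.mul_mem (W.inv_mem h2') h1
      rwa [show (s * w * s⁻¹)⁻¹ * (s * (w * x) * s⁻¹) = s * x * s⁻¹ by group] at this⟩
  obtain ⟨e, he, heW⟩ : ∃ e ∈ E, e ∉ W := by
    by_contra hc
    push Not at hc
    have := Subgroup.card_le_of_le (show E ≤ W from hc)
    omega
  have hW4' : 4 ≤ Nat.card W := by
    haveI := Fintype.ofFinite W
    have hwz1 : w * z ≠ 1 := fun h => hwz (by rw [mul_eq_one_iff_eq_inv.1 h, hE.inv_eq hz])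
    have h4 : ({1, z, w, w * z} : Finset S).card = 4 := by
      rw [Finset.card_insert_of_notMem, Finset.card_insert_of_notMem, Finset.card_insert_of_notMem,
        Finset.card_singleton]
      · simp [hz1]
      · simp [hwz.symm, hw1]
      · simp [hz1.symm, hw1.symm, hwz1.symm]
    have hle := Finset.card_le_card (show ({1, z, w, w * z} : Finset S) ⊆ (W : Set S).toFinset from fun x hx => by
      simp only [Finset.mem_insert, Finset.mem_singleton] at hx
      rw [Set.mem_toFinset]
      rcases hx with rfl | rfl | rfl | rfl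
      exacts [W.one_mem, Or.inl (Or.inr rfl), Or.inr (Or.inl (hE.mul_self hw)),
        Or.inr (Or.inr (by rw [← mul_assoc, hE.mul_self hw, one_mul]))])
    rw [Nat.card_eq_fintype_card]
    simp only [Set.toFinset_card, SetLike.coe_sort_coe] at hle
    omega
  have hidx : (W.subgroupOf E).index = 2 := by
    have h := (W.subgroupOf E).card_mul_index
    rw [Nat.card_congr (Subgroup.subgroupOfEquivOfLe hWE).toEquiv, hE8] at h
    have : Nat.card W = 4 := le_antisymm hW4 hW4'
    rw [this] at h
    omega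
  have hspan : ∀ x ∈ E, x ∈ W ∨ e * x ∈ W := by
    intro x hx
    by_cases hxW : x ∈ W
    · exact Or.inl hxW
    · exact Or.inr ((Subgroup.mem_subgroupOf).1 ((Subgroup.mul_mem_iff_of_index_two hidx
        (a := (⟨e, he⟩ : E)) (b := ⟨x, hx⟩)).2 (iff_of_false heW hxW)))
  have heconj : ∀ s : S, e * (s * e * s⁻¹) ∈ W := fun s => by
    refine (hspan _ ((inferInstance : E.Normal).conj_mem e he s)).resolve_left fun h => heW ?_
    have := (inferInstance : W.Normal).conj_mem _ h s⁻¹
    rwa [show s⁻¹ * (s * e * s⁻¹) * s⁻¹⁻¹ = e by group] at this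
  set K := Subgroup.centralizer (E : Set S)
  let F : S ⧸ K → Bool × W := Quotient.lift (fun s => (decide (s * w * s⁻¹ = w),
      (⟨e * (s * e * s⁻¹), heconj s⟩ : W))) (by
    intro s t hst
    have hk : s⁻¹ * t ∈ K := QuotientGroup.leftRel_apply.1 hst
    have hconj : ∀ u ∈ E, t * u * t⁻¹ = s * u * s⁻¹ := fun u hu => by
      have := Subgroup.mem_centralizer_iff.1 hk u hu
      calc t * u * t⁻¹ = s * ((s⁻¹ * t) * u) * t⁻¹ := by group
        _ = s * (u * (s⁻¹ * t)) * t⁻¹ := by rw [← this]
        _ = s * u * s⁻¹ := by group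
    simp only [hconj w hw, hconj e he])
  have hFinj : Function.Injective F := by
    intro p q
    induction p using Quotient.inductionOn with
    | h s =>
      induction q using Quotient.inductionOn with
      | h t =>
        intro h
        have h' : decide (s * w * s⁻¹ = w) = decide (t * w * t⁻¹ = w) ∧
            (⟨e * (s * e * s⁻¹), heconj s⟩ : W) = ⟨e * (t * e * t⁻¹), heconj t⟩ := Prod.ext_iff.1 h
        have e2 : s * e * s⁻¹ = t * e * t⁻¹ := mul_left_cancel (congrArg Subtype.val h'.2)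
        have e1 : s * w * s⁻¹ = t * w * t⁻¹ := by
          have := decide_eq_decide.1 h'.1
          rcases hwconj s with a | a <;> rcases hwconj t with b | b <;> rw [a, b] <;> simp_all
        refine Quotient.sound (QuotientGroup.leftRel_apply.2 (Subgroup.mem_centralizer_iff.2 fun u hu => ?_))
        have fix : ∀ {v}, s * v * s⁻¹ = t * v * t⁻¹ → s⁻¹ * t * v * (s⁻¹ * t)⁻¹ = v := fun {v} hv => by
          calc s⁻¹ * t * v * (s⁻¹ * t)⁻¹ = s⁻¹ * (t * v * t⁻¹) * s := by group
            _ = v := by rw [← hv]; group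
        set p := s⁻¹ * t with hp
        have hpw := fix e1
        have hpe := fix e2
        have hpz := zconj p
        have hpW : ∀ v ∈ W, p * v * p⁻¹ = v := by
          intro v hv
          rcases hv with (rfl | rfl) | (hv | hv)
          · group
          · exact hpz
          · rw [show v = w⁻¹ from eq_inv_of_mul_eq_one_right hv, ← conj_inv, hpw]
          · rw [show v = w⁻¹ * z by rw [← hv, inv_mul_cancel_left], ← conj_mul, ← conj_inv, hpw, hpz]
        have : p * u * p⁻¹ = u := by
          rcases hspan u hu with h'' | h''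
          · exact hpW u h''
          · calc p * u * p⁻¹ = (p * e * p⁻¹)⁻¹ * (p * (e * u) * p⁻¹) := by group
              _ = e⁻¹ * (e * u) := by rw [hpe, hpW _ h'']
              _ = u := by group
        exact (mul_inv_eq_iff_eq_mul.1 this).symm
  have hle : K.index ≤ 8 := by
    have := Nat.card_le_card_of_injective F hFinj
    rw [Nat.card_prod, ← Subgroup.index_eq_card] at this
    simp at this
    omega
  refine ⟨hle, fun h8 => ?_⟩
  have hbij : Function.Bijective F := by
    rw [Nat.bijective_iff_injective_and_card]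
    refine ⟨hFinj, le_antisymm (Nat.card_le_card_of_injective F hFinj) ?_⟩
    rw [← Subgroup.index_eq_card, h8, Nat.card_prod]; simp; omega
  obtain ⟨p, hp⟩ := hbij.2 (false, 1)
  obtain ⟨q, hq⟩ := hbij.2 (true, ⟨w, Or.inr (Or.inl (hE.mul_self hw))⟩)
  induction p using Quotient.inductionOn with
  | h s =>
    induction q using Quotient.inductionOn with
    | h t =>
      simp only [F, Quotient.lift_mk, Prod.mk.injEq, decide_eq_false_iff_not, decide_eq_true_eq,
        Subgroup.mk_eq_one, Subtype.mk.injEq] at hp hq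
      have sw : s * w * s⁻¹ = w * z := (hwconj s).resolve_left hp.1
      have se : s * e * s⁻¹ = e := by rw [mul_eq_one_iff_eq_inv'.1 hp.2, hE.inv_eq he]
      have te : t * e * t⁻¹ = e * w := by
        rw [← hq.2, ← mul_assoc, hE.mul_self he, one_mul]
      refine ⟨s, t, fun hc => ?_⟩
      have h1 := Subgroup.mem_centralizer_iff.1 hc e he
      have hst : s * t * e * (s * t)⁻¹ = t * s * e * (t * s)⁻¹ := by
        calc s * t * e * (s * t)⁻¹ = t * s * ((s⁻¹ * t⁻¹ * s * t) * e) * (s⁻¹ * t⁻¹ * s * t)⁻¹ * (t * s)⁻¹ := by group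
          _ = t * s * (e * (s⁻¹ * t⁻¹ * s * t)) * (s⁻¹ * t⁻¹ * s * t)⁻¹ * (t * s)⁻¹ := by rw [h1]
          _ = _ := by group
      have l1 : s * t * e * (s * t)⁻¹ = e * (w * z) := by
        calc s * t * e * (s * t)⁻¹ = s * (t * e * t⁻¹) * s⁻¹ := by group
          _ = (s * e * s⁻¹) * (s * w * s⁻¹) := by rw [te]; group
          _ = _ := by rw [se, sw]
      have l2 : t * s * e * (t * s)⁻¹ = e * w := by
        calc t * s * e * (t * s)⁻¹ = t * (s * e * s⁻¹) * t⁻¹ := by group
          _ = _ := by rw [se, te]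
      rw [l1, l2] at hst
      exact hz1 (mul_eq_left.1 (mul_left_cancel hst))

end Cfsg.Agent.TwoGroups.SelfCentralEight
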