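import Cfsg.Agent.TwoGroups.SelfCentralEight.Sixteen

/-! A maximal normal elementary abelian subgroup of order eight. -/

set_option autoImplicit false
set_option linter.unusedSectionVars false

namespace Cfsg.Agent.TwoGroups.SelfCentralEight

open NormalRankTwo

variable {S : Type*} [Group S] [Finite S]

/-- A normal elementary subgroup `E` of order eight, and an involution `a` with four fixed points `F` on it such
that `F` and `a` generate a self-centralising subgroup. -/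
structure Eight (E F : Subgroup S) (a f : S) : Prop where
  two : IsPGroup 2 S
  normal : E.Normal
  elem : Elem E
  card : Nat.card E = 8
  max : ∀ D : Subgroup S, D.Normal → Elem D → E ≤ D → D ≤ E
  inv : a * a = 1
  memF : ∀ e, e ∈ F ↔ e ∈ E ∧ a * e * a = e
  cardF : Nat.card F = 4
  fne : f ≠ 1
  image : ∀ x, (∃ e ∈ E, com a e = x) ↔ (x = 1 ∨ x = f)
  pin : ∀ x, (∀ u ∈ F, u * x = x * u) → a * x = x * a → x ∈ F ∨ a * x ∈ F

theorem closure_comm {s : Set S} (h : ∀ x ∈ s, ∀ y ∈ s, x * y = y * x) :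
    ∀ a ∈ Subgroup.closure s, ∀ b ∈ Subgroup.closure s, a * b = b * a := by
  have h1 : Subgroup.closure s ≤ Subgroup.centralizer s :=
    (Subgroup.closure_le _).2 fun x hx => Subgroup.mem_centralizer_iff.2 fun y hy => h y hy x hx
  have h2 : Subgroup.closure s ≤ Subgroup.centralizer (Subgroup.closure s : Set S) :=
    (Subgroup.closure_le _).2 fun x hx => Subgroup.mem_centralizer_iff.2 fun y hy =>
      (Subgroup.mem_centralizer_iff.1 (h1 hy) x hx).symm
  exact fun a ha b hb => Subgroup.mem_centralizer_iff.1 (h2 hb) a ha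

namespace Eight

variable {E F : Subgroup S} {a f : S} (P : Eight E F a f)
include P

theorem ainv : a⁻¹ = a := invol_inv P.inv

theorem aa (y : S) : a * (a * y) = y := by rw [← mul_assoc, P.inv, one_mul]

theorem aconj_mul (x y : S) : a * (x * y) * a = a * x * a * (a * y * a) := by simp only [mul_assoc, P.aa]

theorem aconj_mem {N : Subgroup S} (hN : N.Normal) {x : S} (hx : x ∈ N) : a * x * a ∈ N := by
  have := hN.conj_mem x hx a
  rwa [P.ainv] at this

theorem com_mul' (x y : S) : com a (x * y) = y⁻¹ * com a x * y * com a y := by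
  simp only [com, mul_inv_rev, P.aconj_mul]; group

theorem F_le {u : S} (hu : u ∈ F) : u ∈ E := ((P.memF u).1 hu).1

theorem K_normal : (Subgroup.centralizer (E : Set S)).Normal := by haveI := P.normal; infer_instance

theorem a_notMem : a ∉ Subgroup.centralizer (E : Set S) := by
  intro h
  have := Subgroup.card_le_of_le (show E ≤ F from fun e he => (P.memF e).2 ⟨he, by
    rw [← Subgroup.mem_centralizer_iff.1 h e he, mul_assoc, P.inv, mul_one]⟩)
  rw [P.card, P.cardF] at this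
  omega

theorem f_mem : f ∈ F := by
  obtain ⟨e, he, hef⟩ := (P.image f).2 (Or.inr rfl)
  have hm : com a e ∈ E := E.mul_mem (E.inv_mem he) (P.aconj_mem P.normal he)
  rw [← hef]
  exact (P.memF _).2 ⟨hm, fix_of_inverted P.elem P.inv hm⟩

theorem com_mem {x : S} (h : com a x ∈ E) : com a x ∈ F := (P.memF _).2 ⟨h, fix_of_inverted P.elem P.inv h⟩

theorem commutesF {x : S} (hx : x ∈ Subgroup.centralizer (E : Set S)) : ∀ u ∈ F, u * x = x * u :=
  fun u hu => Subgroup.mem_centralizer_iff.1 hx u (P.F_le hu)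

theorem mem_of_fixed {x : S} (hx : x ∈ Subgroup.centralizer (E : Set S)) (h : com a x = 1) : x ∈ F := by
  refine (P.pin x (P.commutesF hx) ((com_one_iff P.inv).1 h)).resolve_right fun hax => P.a_notMem ?_
  rw [show a = a * x * x⁻¹ by group]
  exact mul_mem (Subgroup.mem_centralizer_iff.2 fun e he => P.elem.comm he (P.F_le hax)) (inv_mem hx)

theorem outer {x : S} (hx : x ∈ Subgroup.centralizer (E : Set S)) (hxE : x ∉ E) (hk : com a x ∈ E) :
    com a x ≠ 1 ∧ com a x ≠ f := by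
  refine ⟨fun h => hxE (P.F_le (P.mem_of_fixed hx h)), fun h => ?_⟩
  obtain ⟨e, he, hef⟩ := (P.image f).2 (Or.inr rfl)
  haveI := P.normal
  have h1 : com a (x * e) = 1 := by
    rw [com_mul P.elem P.inv hk he, h, hef, P.elem.mul_self (P.F_le P.f_mem)]
  refine hxE ((E.mul_mem_cancel_right he).1 (P.F_le (P.mem_of_fixed (mul_mem hx ?_) h1)))
  exact Subgroup.mem_centralizer_iff.2 fun d hd => P.elem.comm hd he

theorem Fcases {p : S} (hp : p ∈ F) (hp1 : p ≠ 1) (hpf : p ≠ f) {u : S} (hu : u ∈ F) :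
    u = 1 ∨ u = f ∨ u = p ∨ u = f * p :=
  four_cases P.cardF.le P.f_mem hp P.fne hp1 hpf.symm
    (fun e => hpf (by rw [eq_inv_of_mul_eq_one_right e, P.elem.inv_eq (P.F_le P.f_mem)])) hu

theorem unique {x y : S} (hx : x ∈ Subgroup.centralizer (E : Set S)) (hxE : x ∉ E) (hkx : com a x ∈ E)
    (hy : y ∈ Subgroup.centralizer (E : Set S)) (hyE : y ∉ E) (hky : com a y ∈ E) : x * y ∈ E := by
  by_contra hxy
  have hprod : com a (x * y) = com a x * com a y := by
    rw [P.com_mul', mul_assoc y⁻¹ (com a x), Subgroup.mem_centralizer_iff.1 hy _ hkx, inv_mul_cancel_left]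
  have h := P.outer (mul_mem hx hy) hxy (hprod ▸ E.mul_mem hkx hky)
  rw [hprod] at h
  obtain ⟨h1, h2⟩ := P.outer hy hyE hky
  obtain ⟨h3, h4⟩ := P.outer hx hxE hkx
  have hfm := P.F_le P.f_mem
  rcases P.Fcases (P.com_mem hky) h1 h2 (P.com_mem hkx) with e | e | e | e
  · exact h3 e
  · exact h4 e
  · exact h.1 (by rw [e]; exact P.elem.mul_self hky)
  · exact h.2 (by rw [e, mul_assoc, P.elem.mul_self hky, mul_one])

theorem exists_M : ∃ M : Subgroup S, M.Normal ∧ E ≤ M ∧ M ≤ Subgroup.centralizer (E : Set S) ∧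
    (∀ x ∈ M, ∀ y ∈ M, x * y = y * x) ∧
    (∀ x ∈ Subgroup.centralizer (E : Set S), (∀ m ∈ M, m * x = x * m) → x ∈ M) := by
  classical
  obtain ⟨M, ⟨hMn, hEM, hMK, hMc⟩, hmax⟩ := Set.Finite.exists_maximal (Set.toFinite
    {M : Subgroup S | M.Normal ∧ E ≤ M ∧ M ≤ Subgroup.centralizer (E : Set S) ∧ ∀ x ∈ M, ∀ y ∈ M, x * y = y * x})
    ⟨E, P.normal, le_rfl, fun e he => Subgroup.mem_centralizer_iff.2 fun d hd => P.elem.comm hd he,
      fun x hx y hy => P.elem.comm hx hy⟩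
  refine ⟨M, hMn, hEM, hMK, hMc, fun x hx hxc => ?_⟩
  by_contra hxM
  haveI := hMn
  haveI := P.K_normal
  let L := Subgroup.centralizer (E : Set S) ⊓ Subgroup.centralizer (M : Set S)
  have hML : M < L := lt_of_le_of_ne (le_inf hMK fun m hm => Subgroup.mem_centralizer_iff.2 fun n hn => hMc n hn m hm)
    fun e => hxM (e ▸ ⟨hx, Subgroup.mem_centralizer_iff.2 hxc⟩)
  obtain ⟨c, hcL, hcM, -, hcc⟩ := exists_central_mod P.two M L hML
  let B := Subgroup.closure ((M : Set S) ∪ {c})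
  have hMB : M ≤ B := fun m hm => Subgroup.subset_closure (Or.inl hm)
  have hcB : c ∈ B := Subgroup.subset_closure (Or.inr rfl)
  have hBc : ∀ u ∈ B, ∀ v ∈ B, u * v = v * u := closure_comm (by
    rintro u (hu | rfl) v (hv | rfl)
    · exact hMc u hu v hv
    · exact Subgroup.mem_centralizer_iff.1 hcL.2 u hu
    · exact (Subgroup.mem_centralizer_iff.1 hcL.2 v hv).symm
    · rfl)
  have hBn : B.Normal := ⟨fun b hb s => by
    have : B ≤ B.comap (MulAut.conj s).toMonoidHom := (Subgroup.closure_le _).2 (by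
      rintro u (hu | hu)
      · exact hMB (hMn.conj_mem u hu s)
      · rw [Set.mem_singleton_iff.1 hu]
        show s * c * s⁻¹ ∈ B
        rw [show s * c * s⁻¹ = c * (c⁻¹ * (s * c * s⁻¹)) by group]
        exact B.mul_mem hcB (hMB (hcc s)))
    exact this hb⟩
  have hBK : B ≤ Subgroup.centralizer (E : Set S) := (Subgroup.closure_le _).2 (by
    rintro u (hu | rfl)
    exacts [hMK hu, hcL.1])
  exact hcM (hmax ⟨hBn, hEM.trans hMB, hBK, hBc⟩ hMB hcB)

variable {M : Subgroup S} (hMn : M.Normal) (hEM : E ≤ M) (hMK : M ≤ Subgroup.centralizer (E : Set S))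
  (hMc : ∀ x ∈ M, ∀ y ∈ M, x * y = y * x)
  (hMs : ∀ x ∈ Subgroup.centralizer (E : Set S), (∀ m ∈ M, m * x = x * m) → x ∈ M)
include hMn hEM hMK hMc hMs

theorem com_mem_M {m : S} (hm : m ∈ M) : com a m ∈ M := M.mul_mem (M.inv_mem hm) (P.aconj_mem hMn hm)

theorem norm_mem {m : S} (hm : m ∈ M) : m * (a * m * a) ∈ F := by
  have h1 := P.aconj_mem hMn hm
  refine P.mem_of_fixed (hMK (M.mul_mem hm h1)) ?_
  rw [com, P.aconj_mul, show a * (a * m * a) * a = m by simp only [mul_assoc, P.aa, P.inv, mul_one],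
    hMc _ h1 m hm, inv_mul_cancel]

theorem norm_sq {m : S} (hm : m ∈ M) : a * (m * m) * a = (m * m)⁻¹ := by
  have h := P.norm_mem hMn hEM hMK hMc hMs hm
  have h1 := P.aconj_mem hMn hm
  refine eq_inv_of_mul_eq_one_right ?_
  rw [P.aconj_mul]
  calc m * m * (a * m * a * (a * m * a)) = m * (m * (a * m * a)) * (a * m * a) := by group
    _ = (m * (a * m * a)) * (m * (a * m * a)) := by rw [hMc m hm _ (M.mul_mem hm h1)]; group
    _ = 1 := P.elem.mul_self (P.F_le h)

theorem com_mem_E {m : S} (hm : m ∈ M) (h2 : m * m ∈ E) : com a m ∈ E := by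
  rw [show com a m = (m * m)⁻¹ * (m * (a * m * a)) by simp only [com]; group]
  exact E.mul_mem (E.inv_mem h2) (P.F_le (P.norm_mem hMn hEM hMK hMc hMs hm))

theorem omega_le {m : S} (hm : m ∈ M) (h2 : m ^ 2 = 1) : m ∈ E := by
  let D : Subgroup S :=
    { carrier := {x | x ∈ M ∧ x ^ 2 = 1}
      one_mem' := ⟨M.one_mem, one_pow 2⟩
      mul_mem' := fun {x y} hx hy => ⟨M.mul_mem hx.1 hy.1, by
        rw [(show Commute x y from hMc x hx.1 y hy.1).mul_pow, hx.2, hy.2, one_mul]⟩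
      inv_mem' := fun {x} hx => ⟨M.inv_mem hx.1, by rw [inv_pow, hx.2, inv_one]⟩ }
  exact P.max D ⟨fun x hx s => ⟨hMn.conj_mem x hx.1 s, by rw [conj_pow, hx.2]; group⟩⟩
    ⟨fun x hx y hy => hMc x hx.1 y hy.1, fun x hx => hx.2⟩ (fun e he => ⟨hEM he, P.elem.2 e he⟩) ⟨hm, h2⟩

/-- The elements squaring into `E` outside it form one coset. -/
theorem coset_eq {x y : S} (hx : x ∈ M) (hxE : x ∉ E) (hx2 : x * x ∈ E) (hy : y ∈ M) (hyE : y ∉ E)
    (hy2 : y * y ∈ E) : x⁻¹ * y ∈ E := by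
  have h := P.unique (hMK hx) hxE (P.com_mem_E hMn hEM hMK hMc hMs hx hx2) (hMK hy) hyE
    (P.com_mem_E hMn hEM hMK hMc hMs hy hy2)
  rw [show x⁻¹ * y = (x * x)⁻¹ * (x * y) by group]
  exact E.mul_mem (E.inv_mem hx2) h

theorem square_eq {x y : S} (hx : x ∈ M) (hxE : x ∉ E) (hx2 : x * x ∈ E) (hy : y ∈ M) (hyE : y ∉ E)
    (hy2 : y * y ∈ E) : y * y = x * x := by
  have he := P.coset_eq hMn hEM hMK hMc hMs hx hxE hx2 hy hyE hy2
  have hc := hMc x hx _ (hEM he)
  calc y * y = x * ((x⁻¹ * y) * x) * (x⁻¹ * y) := by group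
    _ = x * x * ((x⁻¹ * y) * (x⁻¹ * y)) := by rw [← hc]; group
    _ = x * x := by rw [P.elem.mul_self he, mul_one]

theorem square_central {x : S} (hx : x ∈ M) (hxE : x ∉ E) (hx2 : x * x ∈ E) (s : S) :
    s * (x * x) * s⁻¹ = x * x := by
  rw [← conj_mul]
  refine P.square_eq hMn hEM hMK hMc hMs hx hxE hx2 (hMn.conj_mem x hx s) (fun h => hxE ?_) ?_
  · have := P.normal.conj_mem _ h s⁻¹
    rwa [show s⁻¹ * (s * x * s⁻¹) * s⁻¹⁻¹ = x by group] at this
  · rw [conj_mul]; exact P.normal.conj_mem _ hx2 s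

theorem exists_root {m : S} (hm : m ∈ M) (hmE : m ∉ E) : ∃ i, m ^ 2 ^ i ∉ E ∧ m ^ 2 ^ i * m ^ 2 ^ i ∈ E := by
  classical
  obtain ⟨N, hN⟩ := P.two m
  have hex : ∃ n, m ^ 2 ^ n ∈ E := ⟨N, by rw [hN]; exact E.one_mem⟩
  obtain ⟨i, hi⟩ : ∃ i, Nat.find hex = i + 1 := by
    refine ⟨Nat.find hex - 1, (Nat.succ_pred_eq_of_pos (Nat.pos_of_ne_zero fun h0 => hmE ?_)).symm⟩
    have := Nat.find_spec hex
    rwa [h0, pow_zero, pow_one] at this
  refine ⟨i, Nat.find_min hex (by omega), ?_⟩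
  rw [← pow_two, ← pow_mul, ← pow_succ, ← hi]
  exact Nat.find_spec hex

end Eight

end Cfsg.Agent.TwoGroups.SelfCentralEight
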