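import Cfsg.Agent.TwoGroups.SelfCentralEight.Parity

/-! The sectional bound with a maximal normal elementary abelian subgroup of order eight. -/

set_option autoImplicit false
set_option linter.unusedSectionVars false

namespace Cfsg.Agent.TwoGroups.SelfCentralEight

open NormalRankTwo

variable {S : Type*} [Group S] [Finite S]

namespace Eight

variable {E F : Subgroup S} {a f : S} (P : Eight E F a f)
include P

theorem conj_f {h : S} (hk : com a h ∈ Subgroup.centralizer (E : Set S)) : h * f * h⁻¹ = f := by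
  obtain ⟨e, he, hef⟩ := (P.image f).2 (Or.inr rfl)
  have haha : a * h * a = h * com a h := by rw [com, mul_inv_cancel_left]
  have hinv : a * h⁻¹ * a = (a * h * a)⁻¹ := by rw [mul_inv_rev, mul_inv_rev, P.ainv, mul_assoc]
  have hfix : com a h * (a * e * a) * (com a h)⁻¹ = a * e * a := by
    rw [← Subgroup.mem_centralizer_iff.1 hk _ (P.aconj_mem P.normal he), mul_inv_cancel_right]
  have h1 : com a (h * e * h⁻¹) = h * f * h⁻¹ := by
    calc com a (h * e * h⁻¹) = (h * e * h⁻¹)⁻¹ * (a * h * a * (a * e * a) * (a * h⁻¹ * a)) := by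
          rw [com, P.aconj_mul, P.aconj_mul]
      _ = h * e⁻¹ * h⁻¹ * (h * (com a h * (a * e * a) * (com a h)⁻¹) * h⁻¹) := by rw [hinv, haha]; group
      _ = h * com a e * h⁻¹ := by rw [hfix, com]; group
      _ = _ := by rw [hef]
  rcases (P.image _).1 ⟨_, P.normal.conj_mem e he h, h1⟩ with r | r
  · exact absurd (conj_eq_one_iff.1 r) P.fne
  · exact r

variable {M : Subgroup S} (hMn : M.Normal) (hEM : E ≤ M) (hMK : M ≤ Subgroup.centralizer (E : Set S))
  (hMc : ∀ x ∈ M, ∀ y ∈ M, x * y = y * x)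
  (hMs : ∀ x ∈ Subgroup.centralizer (E : Set S), (∀ m ∈ M, m * x = x * m) → x ∈ M)
include hMn hEM hMK hMc hMs

theorem fix_of_commute (hne : M ≠ E) {y : S} (hy : y ∈ Subgroup.centralizer (E : Set S)) (hyM : y ∉ M) {h : S}
    (hk : com a h ∈ Subgroup.centralizer (E : Set S)) : ∀ u ∈ F, u * h = h * u := by
  obtain ⟨x0, hx0, hx0E, hx02⟩ := P.exists_outer hMn hEM hMK hMc hMs hne
  have hf := P.conj_f hk
  set z := x0 * x0 with hz
  have hzc : ∀ s, s * z * s⁻¹ = z := P.square_central hMn hEM hMK hMc hMs hx0 hx0E hx02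
  have hz1 : z ≠ 1 := fun e => hx0E (P.omega_le hMn hEM hMK hMc hMs hx0 (by rw [pow_two]; exact e))
  have hzF : z ∈ F := (P.memF z).2 ⟨hx02, by have := hzc a; rwa [P.ainv] at this⟩
  have hconv : ∀ {u}, h * u * h⁻¹ = u → u * h = h * u := fun {u} e => (mul_inv_eq_iff_eq_mul.1 e).symm
  by_cases hzf : z ≠ f
  · intro u hu
    refine hconv ?_
    rcases P.Fcases hzF hz1 hzf hu with r | r | r | r <;> rw [r]
    · group
    · exact hf
    · exact hzc h
    · rw [← conj_mul, hf, hzc]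
  push Not at hzf
  have hsq : ∀ m ∈ M, m * m ∈ E := by
    intro m hm
    by_contra hmE
    obtain ⟨i, hi1, hi2⟩ := P.exists_root hMn hEM hMK hMc hMs (M.mul_mem hm hm) hmE
    set w := m ^ 2 ^ i with hw
    have e2 : (m * m) ^ 2 ^ i = w * w := by rw [hw, (Commute.refl m).mul_pow]
    rw [e2] at hi1 hi2
    have hwM : w ∈ M := pow_mem hm _
    have hwwM : w * w ∈ M := M.mul_mem hwM hwM
    have h1 := P.norm_sq hMn hEM hMK hMc hMs hwM
    have h2 : com a (w * w) = z := by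
      rw [com, h1, ← mul_inv_rev, P.elem.inv_eq hi2, hz]
      exact P.square_eq hMn hEM hMK hMc hMs hx0 hx0E hx02 hwwM hi1 hi2
    exact (P.outer (hMK hwwM) hi1 (P.com_mem_E hMn hEM hMK hMc hMs hwwM hi2)).2 (h2.trans hzf)
  have hev : ∀ m, Ev M E m → m ∈ E := by
    rintro m ⟨n, hn, e, he, rfl⟩
    exact E.mul_mem (hsq n hn) he
  have hkM : com a h ∈ M := P.com_K_mem hMn hEM hMK hMc hMs hne hk
  set e0 := com a x0 with he0
  have he0E : e0 ∈ E := P.com_mem_E hMn hEM hMK hMc hMs hx0 hx02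
  obtain ⟨o1, o2⟩ := P.outer (hMK hx0) hx0E he0E
  have he0F := P.com_mem he0E
  by_cases hfix : h * e0 * h⁻¹ = e0
  · intro u hu
    refine hconv ?_
    rcases P.Fcases he0F o1 o2 hu with r | r | r | r <;> rw [r]
    · group
    · exact hf
    · exact hfix
    · rw [← conj_mul, hf, hfix]
  exfalso
  have haha : a * h * a = h * com a h := by rw [com, mul_inv_cancel_left]
  have hinv : a * h⁻¹ * a = (a * h * a)⁻¹ := by rw [mul_inv_rev, mul_inv_rev, P.ainv, mul_assoc]
  have hFh : ∀ u ∈ F, h * u * h⁻¹ ∈ F := by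
    intro u hu
    refine (P.memF _).2 ⟨P.normal.conj_mem _ (P.F_le hu) h, ?_⟩
    have hku : com a h * u * (com a h)⁻¹ = u := by
      rw [← Subgroup.mem_centralizer_iff.1 hk u (P.F_le hu), mul_inv_cancel_right]
    calc a * (h * u * h⁻¹) * a = a * h * a * (a * u * a) * (a * h⁻¹ * a) := by rw [P.aconj_mul, P.aconj_mul]
      _ = h * (com a h * u * (com a h)⁻¹) * h⁻¹ := by rw [((P.memF u).1 hu).2, hinv, haha]; group
      _ = _ := by rw [hku]
  have he0h : h * e0 * h⁻¹ = e0 * f := by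
    rcases P.Fcases he0F o1 o2 (hFh _ he0F) with r | r | r | r
    · exact absurd (conj_eq_one_iff.1 r) o1
    · exact absurd (mul_left_cancel (mul_right_cancel (r.trans hf.symm))) o2
    · exact absurd r hfix
    · rw [r, P.elem.comm he0E (P.F_le P.f_mem)]
  have hxh : h * x0 * h⁻¹ ∈ M := hMn.conj_mem x0 hx0 h
  have hxhE : h * x0 * h⁻¹ ∉ E := fun r => hx0E (by
    have := P.normal.conj_mem _ r h⁻¹
    rwa [show h⁻¹ * (h * x0 * h⁻¹) * h⁻¹⁻¹ = x0 by group] at this)
  set g := x0⁻¹ * (h * x0 * h⁻¹) with hg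
  have hgE : g ∈ E := P.coset_eq hMn hEM hMK hMc hMs hx0 hx0E hx02 hxh hxhE (hsq _ hxh)
  haveI := P.normal
  have hgcom : com a g = f := by
    have l1 : com a (h * x0 * h⁻¹) = e0 * f := by
      have hm' : com a h * (a * x0 * a) * (com a h)⁻¹ = a * x0 * a := by
        rw [hMc _ hkM _ (P.aconj_mem hMn hx0), mul_inv_cancel_right]
      calc com a (h * x0 * h⁻¹) = (h * x0 * h⁻¹)⁻¹ * (a * h * a * (a * x0 * a) * (a * h⁻¹ * a)) := by
            rw [com, P.aconj_mul, P.aconj_mul]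
        _ = h * x0⁻¹ * h⁻¹ * (h * (com a h * (a * x0 * a) * (com a h)⁻¹) * h⁻¹) := by rw [hinv, haha]; group
        _ = h * e0 * h⁻¹ := by rw [hm', he0, com]; group
        _ = _ := he0h
    rw [show h * x0 * h⁻¹ = x0 * g by rw [hg, mul_inv_cancel_left], com_mul P.elem P.inv he0E hgE] at l1
    exact mul_left_cancel l1
  have hgF : g ∉ F := fun r => P.fne (by rw [← hgcom, com, ((P.memF g).1 r).2, inv_mul_cancel])
  -- `y` and its commutator
  set k := com a h with hkdef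
  set j := com a y with hj
  have hjM : j ∈ M := P.com_K_mem hMn hEM hMK hMc hMs hne (P.com_inK hMn hEM hMK hMc hMs hy)
  have hjE : j ∉ E := fun r => P.com_odd hMn hEM hMK hMc hMs hne hy hyM (P.ev_of_E hMn hEM hMK hMc hMs r)
  have hayj : a * y * a = y * j := by rw [hj, com, mul_inv_cancel_left]
  set m := y⁻¹ * (h * y * h⁻¹) with hmdef
  have hmM : m ∈ M := by
    refine P.two_cosets hMn hEM hMK hMc hMs hne (inv_mem hy) (fun r => hyM (by simpa using M.inv_mem r))
      (P.K_normal.conj_mem _ hy h) fun r => hyM ?_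
    have := hMn.conj_mem _ r h⁻¹
    rwa [show h⁻¹ * (h * y * h⁻¹) * h⁻¹⁻¹ = y by group] at this
  have hmc : com a m ∈ F := P.com_mem (P.com_mem_E hMn hEM hMK hMc hMs hmM (hsq _ hmM))
  set c1 := y⁻¹ * k * y * k⁻¹ with hc1
  have hyk : y⁻¹ * k * y ∈ M := by
    have := hMn.conj_mem k hkM y⁻¹
    rwa [inv_inv] at this
  have hc1E : c1 ∈ E := by
    by_cases hkE : k ∈ E
    · rw [hc1, mul_assoc y⁻¹ k y, Subgroup.mem_centralizer_iff.1 hy k hkE, inv_mul_cancel_left, mul_inv_cancel]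
      exact E.one_mem
    · have hykE : y⁻¹ * k * y ∉ E := fun r => hkE (by
        have := P.normal.conj_mem _ r y
        rwa [show y * (y⁻¹ * k * y) * y⁻¹ = k by group] at this)
      have h5 := P.coset_eq hMn hEM hMK hMc hMs hkM hkE (hsq _ hkM) hyk hykE (hsq _ hyk)
      rwa [hMc _ (M.inv_mem hkM) _ hyk] at h5
  have hc1F : c1 ∈ F := by
    refine (P.memF _).2 ⟨hc1E, ?_⟩
    have hak : a * k * a = k⁻¹ := com_inverted P.inv h
    have hinv' : ∀ u, a * u⁻¹ * a = (a * u * a)⁻¹ := fun u => by rw [mul_inv_rev, mul_inv_rev, P.ainv, mul_assoc]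
    have hjc : j⁻¹ * (y⁻¹ * k⁻¹ * y) * j = y⁻¹ * k⁻¹ * y := by
      have hm' : y⁻¹ * k⁻¹ * y ∈ M := by
        have := hMn.conj_mem _ (M.inv_mem hkM) y⁻¹
        rwa [inv_inv] at this
      rw [mul_assoc, hMc _ hm' j hjM, inv_mul_cancel_left]
    calc a * c1 * a = (a * y⁻¹ * a) * (a * k * a) * (a * y * a) * (a * k⁻¹ * a) := by
          simp only [hc1, mul_assoc, P.aa]
      _ = j⁻¹ * (y⁻¹ * k⁻¹ * y) * j * k := by rw [hinv', hak, hayj, hinv' k, hak]; group
      _ = y⁻¹ * k⁻¹ * y * k := by rw [hjc]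
      _ = c1⁻¹ := by
          rw [hc1, show (y⁻¹ * k * y * k⁻¹)⁻¹ = k * (y⁻¹ * k⁻¹ * y) by group]
          exact (hMc k hkM _ (by simpa [mul_assoc] using M.inv_mem hyk)).symm
      _ = c1 := P.elem.inv_eq hc1E
  have hrel : h * c1 * h⁻¹ * (j⁻¹ * (h * j * h⁻¹)) = com a m := by
    have hhy : h * y * h⁻¹ = y * m := by rw [hmdef, mul_inv_cancel_left]
    have e1 : a * (h * y * h⁻¹) * a = h * (k * y * j * k⁻¹) * h⁻¹ := by
      rw [P.aconj_mul, P.aconj_mul, hinv, haha, hayj]; group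
    have e2 : k * y * j * k⁻¹ = y * c1 * j := by
      calc k * y * j * k⁻¹ = k * y * (j * k⁻¹) := by group
        _ = k * y * (k⁻¹ * j) := by rw [hMc j hjM _ (M.inv_mem hkM)]
        _ = _ := by rw [hc1]; group
    have e3 : h * (y * c1 * j) * h⁻¹ = y * j * (a * m * a) := by
      rw [← e2, ← e1, hhy, P.aconj_mul, hayj]
    have e4 : y * (m * (h * c1 * h⁻¹) * (h * j * h⁻¹)) = y * (j * (a * m * a)) := by
      rw [show y * (m * (h * c1 * h⁻¹) * (h * j * h⁻¹)) = y * m * (h * c1 * h⁻¹) * (h * j * h⁻¹) by group, ← hhy,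
        ← mul_assoc y j, ← e3]
      group
    have e5 := mul_left_cancel e4
    have hc1M : h * c1 * h⁻¹ ∈ M := hMn.conj_mem _ (hEM hc1E) h
    calc h * c1 * h⁻¹ * (j⁻¹ * (h * j * h⁻¹)) = (h * c1 * h⁻¹ * j⁻¹) * (h * j * h⁻¹) := by group
      _ = (j⁻¹ * (h * c1 * h⁻¹)) * (h * j * h⁻¹) := by rw [hMc _ hc1M _ (M.inv_mem hjM)]
      _ = j⁻¹ * (m⁻¹ * (m * (h * c1 * h⁻¹) * (h * j * h⁻¹))) := by group
      _ = j⁻¹ * (m⁻¹ * (j * (a * m * a))) := by rw [e5]
      _ = j⁻¹ * ((m⁻¹ * j) * (a * m * a)) := by group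
      _ = _ := by rw [hMc _ (M.inv_mem hmM) j hjM, com]; group
  have hjF : j⁻¹ * (h * j * h⁻¹) ∈ F := by
    rw [show j⁻¹ * (h * j * h⁻¹) = (h * c1 * h⁻¹)⁻¹ * com a m by rw [← hrel]; group]
    exact F.mul_mem (F.inv_mem (hFh _ hc1F)) hmc
  have hεE : x0⁻¹ * j ∈ E := P.coset_eq hMn hEM hMK hMc hMs hx0 hx0E hx02 hjM hjE (hsq _ hjM)
  set ε := x0⁻¹ * j with hε
  have hcε : ε⁻¹ * (h * ε * h⁻¹) ∈ F := by
    have hm2 := P.normal.conj_mem ε hεE h
    refine (P.memF _).2 ⟨E.mul_mem (E.inv_mem hεE) hm2, ?_⟩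
    have hc2 : com a (h * ε * h⁻¹) = com a ε := by
      have hk' : k * (a * ε * a) * k⁻¹ = a * ε * a := by
        rw [← Subgroup.mem_centralizer_iff.1 hk _ (P.aconj_mem P.normal hεE), mul_inv_cancel_right]
      calc com a (h * ε * h⁻¹) = (h * ε * h⁻¹)⁻¹ * (a * h * a * (a * ε * a) * (a * h⁻¹ * a)) := by
            rw [com, P.aconj_mul, P.aconj_mul]
        _ = h * ε⁻¹ * h⁻¹ * (h * (k * (a * ε * a) * k⁻¹) * h⁻¹) := by rw [hinv, haha]; group
        _ = h * com a ε * h⁻¹ := by rw [hk', com]; group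
        _ = com a ε := by
            rcases (P.image _).1 ⟨ε, hεE, rfl⟩ with r | r <;> rw [r]
            · group
            · exact hf
    have hce : com a (ε⁻¹ * (h * ε * h⁻¹)) = 1 := by
      rw [P.elem.inv_eq hεE]
      have hcεE : com a ε ∈ E := E.mul_mem (E.inv_mem hεE) (P.aconj_mem P.normal hεE)
      rw [com_mul P.elem P.inv hcεE hm2, hc2, P.elem.mul_self hcεE]
    have := (com_one_iff P.inv).1 hce
    rw [this, mul_assoc, P.inv, mul_one]
  refine hgF ?_
  have hprod : j⁻¹ * (h * j * h⁻¹) = g * (ε⁻¹ * (h * ε * h⁻¹)) := by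
    calc j⁻¹ * (h * j * h⁻¹) = (x0 * ε)⁻¹ * (h * (x0 * ε) * h⁻¹) := by rw [hε, mul_inv_cancel_left]
      _ = (ε⁻¹ * g) * (h * ε * h⁻¹) := by rw [hg]; group
      _ = (g * ε⁻¹) * (h * ε * h⁻¹) := by rw [P.elem.comm (E.inv_mem hεE) hgE]
      _ = _ := by group
  rw [hprod] at hjF
  exact (F.mul_mem_cancel_right hcε).1 hjF

/-- When the centraliser of `E` is larger than `M`, the group is small over `M`. -/
theorem cover (hne : M ≠ E) {y : S} (hy : y ∈ Subgroup.centralizer (E : Set S)) (hyM : y ∉ M) :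
    ∀ s : S, s ∈ M ∨ y * s ∈ M ∨ a * s ∈ M ∨ a * s * y ∈ M := by
  have main : ∀ s : S, com a s ∈ Subgroup.centralizer (E : Set S) →
      s ∈ Subgroup.centralizer (E : Set S) ∨ a * s ∈ Subgroup.centralizer (E : Set S) := by
    intro s hs
    have hF := P.fix_of_commute hMn hEM hMK hMc hMs hne hy hyM hs
    by_cases hev : Ev M E (com a s)
    · exact (P.parity hMn hEM hMK hMc hMs hne hF hev).imp (fun r => hMK r) (fun r => hMK r)
    · have hFy : ∀ u ∈ F, u * (s * y) = s * y * u := fun u hu =>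
        ((show Commute u s from hF u hu).mul_right (P.commutesF hy u hu)).eq
      rcases P.parity hMn hEM hMK hMc hMs hne hFy
        (P.ev_com_mul hMn hEM hMK hMc hMs hne (P.com_K_mem hMn hEM hMK hMc hMs hne hs) hev hy hyM) with r | r
      · exact Or.inl (by have := mul_mem (hMK r) (inv_mem hy); rwa [mul_inv_cancel_right] at this)
      · refine Or.inr ?_
        have := mul_mem (hMK r) (inv_mem hy)
        rwa [← mul_assoc a s y, mul_inv_cancel_right] at this
  haveI := P.normal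
  set K := Subgroup.centralizer (E : Set S) with hKdef
  haveI hKn : K.Normal := P.K_normal
  have hK' : K < ⊤ := lt_top_iff_ne_top.2 fun e => P.a_notMem (hKdef ▸ e ▸ Subgroup.mem_top a)
  obtain ⟨c, -, hcK, -, hcc⟩ := exists_central_mod P.two K ⊤ hK'
  set π := QuotientGroup.mk' K
  have hpi : ∀ x : S, π x = 1 ↔ x ∈ K := fun x => QuotientGroup.eq_one_iff x
  have hcc' : ∀ s, π c * π s = π s * π c := fun s => by
    have := (hpi _).2 (hcc s)
    rw [map_mul, map_inv, map_mul, map_mul, map_inv, inv_mul_eq_one] at this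
    conv_lhs => rw [this]
    group
  have haa : π a * π a = 1 := by rw [← map_mul, P.inv, map_one]
  have hcomK : com a c ∈ K := by
    rw [← hpi, com, map_mul, map_inv, map_mul, map_mul, ← hcc' a, mul_assoc, haa, mul_one, inv_mul_cancel]
  have hca : π a = π c := by
    have := (hpi _).2 ((main c hcomK).resolve_left hcK)
    rw [map_mul] at this
    rw [← inv_eq_of_mul_eq_one_right haa, inv_eq_of_mul_eq_one_right this]
  intro s
  have hsK : com a s ∈ K := by
    rw [← hpi, com, map_mul, map_inv, map_mul, map_mul, hca, hcc' s, mul_assoc, ← hca, haa, mul_one, inv_mul_cancel]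
  rcases main s hsK with r | r
  · by_cases hsM : s ∈ M
    · exact Or.inl hsM
    · exact Or.inr (Or.inl (P.two_cosets hMn hEM hMK hMc hMs hne hy hyM r hsM))
  · by_cases hsM : a * s ∈ M
    · exact Or.inr (Or.inr (Or.inl hsM))
    · exact Or.inr (Or.inr (Or.inr (P.two_cosets hMn hEM hMK hMc hMs hne r hsM hy hyM)))

end Eight

end Cfsg.Agent.TwoGroups.SelfCentralEight
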