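import Cfsg.Agent.TwoGroups.SelfCentralEight.EightBound

/-! The count for a maximal normal elementary abelian subgroup of order eight. -/

set_option autoImplicit false
set_option linter.unusedSectionVars false

namespace Cfsg.Agent.TwoGroups.SelfCentralEight

open NormalRankTwo

variable {S : Type*} [Group S] [Finite S]

theorem pow_two_le {Q : Type*} [Group Q] [Finite Q] (hQ : ∀ q : Q, q ^ 2 = 1) {n : ℕ} (h : Nat.card Q < 2 ^ (n + 1)) :
    Nat.card Q ≤ 2 ^ n := by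
  obtain ⟨k, hk⟩ := two_pow hQ
  rw [hk] at h ⊢
  exact Nat.pow_le_pow_right (by norm_num) (Nat.lt_succ_iff.1 ((Nat.pow_lt_pow_iff_right (by norm_num)).1 h))

theorem eq_top_of_two (h2 : IsPGroup 2 S) {N : Subgroup S} [N.Normal] (R : Subgroup (S ⧸ N)) (hi : N.index ≤ 8)
    (hR : N.index < 2 * Nat.card R) : R = ⊤ := by
  refine Subgroup.index_eq_one.1 ?_
  have h := R.card_mul_index
  rw [← Subgroup.index_eq_card] at h
  have hpos := Subgroup.index_ne_zero_of_finite (H := R)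
  by_contra h1
  have h3 : Nat.card R * 2 ≤ N.index := by rw [← h]; exact Nat.mul_le_mul_left _ (by omega)
  omega

section
variable {H : Subgroup S} {Q : Type*} [Group Q] [Finite Q] (ψ : H →* Q) (hψ : Function.Surjective ψ)
  (hQ : ∀ q : Q, q ^ 2 = 1)
include hψ hQ

/-- A self-centralising normal elementary subgroup of order eight. -/
theorem self_eight_bound (h2 : IsPGroup 2 S) {E : Subgroup S} [E.Normal] (hE : Elem E) (hE8 : Nat.card E = 8)
    (hC : Subgroup.centralizer (E : Set S) ≤ E) : Nat.card Q ≤ 16 := by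
  classical
  haveI : Fact (Nat.Prime 2) := ⟨Nat.prime_two⟩
  obtain ⟨hle, hstrict⟩ := section_split E H ψ hψ
  have hCE : Subgroup.centralizer (E : Set S) = E :=
    le_antisymm hC fun e he => Subgroup.mem_centralizer_iff.2 fun d hd => hE.comm hd he
  obtain ⟨h8, hnc⟩ := action_on_eight h2 hE hE8
  rw [hCE] at h8 hnc
  set R := H.map (QuotientGroup.mk' E) with hRdef
  set D := E.subgroupOf H
  set m := Nat.card (D.map ψ) with hm
  have hD8 : Nat.card D ≤ 8 := by
    rw [← hE8]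
    exact Nat.card_le_card_of_injective (fun x : D => (⟨x.1.1, x.2⟩ : E)) fun x y e =>
      Subtype.ext (Subtype.ext (congrArg (fun w : E => w.1) e))
  have hmap := card_map_mul ψ D
  have hR8 : Nat.card R ≤ 8 := (Subgroup.card_le_card_group _).trans (by rw [← Subgroup.index_eq_card]; exact h8)
  have hm8 : m ≤ 8 := (Nat.le_of_dvd Nat.card_pos ⟨_, hmap.symm⟩).trans hD8
  by_cases hm4 : m ≤ 4
  · by_cases hR4 : Nat.card R ≤ 4
    · exact hle.trans (Nat.mul_le_mul hR4 hm4)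
    have htop : R = ⊤ := eq_top_of_two h2 R h8 (by omega)
    have h88 : E.index = 8 := by
      obtain ⟨k, hk⟩ := (h2.to_quotient E).exists_card_eq
      rw [← Subgroup.index_eq_card] at hk
      have : Nat.card R ≤ E.index := by rw [Subgroup.index_eq_card]; exact Subgroup.card_le_card_group _
      have : k < 4 := (Nat.pow_lt_pow_iff_right (show 1 < 2 by norm_num)).1 (show 2 ^ k < 2 ^ 4 by omega)
      interval_cases k <;> omega
    obtain ⟨s, t, hst⟩ := hnc h88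
    have hmem : ∀ u : S, ∃ x : H, QuotientGroup.mk' E x.1 = QuotientGroup.mk' E u := fun u => by
      obtain ⟨x, hx, e⟩ : QuotientGroup.mk' E u ∈ R := by rw [htop]; trivial
      exact ⟨⟨x, hx⟩, e⟩
    obtain ⟨x, hx⟩ := hmem s
    obtain ⟨y, hy⟩ := hmem t
    have := hstrict ⟨x⁻¹ * y⁻¹ * x * y, comm_mem_ker ψ hQ x y, fun h => hst ?_⟩
    · have := this.trans (Nat.mul_le_mul hR8 hm4)
      omega
    · rw [← QuotientGroup.eq_one_iff] at h ⊢
      simp only [Subgroup.coe_mul, Subgroup.coe_inv] at h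
      change QuotientGroup.mk' E (s⁻¹ * t⁻¹ * s * t) = 1
      change QuotientGroup.mk' E (x.1⁻¹ * y.1⁻¹ * x.1 * y.1) = 1 at h
      rw [map_mul, map_mul, map_mul, map_inv, map_inv] at h ⊢
      rw [← hx, ← hy]; exact h
  · have hm8' : m = 8 := by
      obtain ⟨k, hk⟩ := two_pow (Q := D.map ψ) fun q => Subtype.ext (hQ q.1)
      have : k < 4 := (Nat.pow_lt_pow_iff_right (show 1 < 2 by norm_num)).1 (show 2 ^ k < 2 ^ 4 by omega)
      interval_cases k <;> omega
    have hbot : (ψ.ker ⊓ D : Subgroup H) = ⊥ := Subgroup.eq_bot_of_card_eq _ (by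
      have := Nat.card_pos (α := (ψ.ker ⊓ D : Subgroup H))
      rw [show Nat.card (D.map ψ) = 8 from hm8'] at hmap
      omega)
    have hD : Nat.card D = 8 := by
      rw [← hmap, hbot, Subgroup.card_bot, mul_one]; exact hm8'
    have hEH : E ≤ H := by
      intro e he
      obtain ⟨x, hx⟩ := ((Nat.bijective_iff_injective_and_card (fun x : D => (⟨x.1.1, x.2⟩ : E))).2
        ⟨fun x y e' => Subtype.ext (Subtype.ext (congrArg (fun w : E => w.1) e')), by rw [hD, hE8]⟩).2 ⟨e, he⟩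
      have : x.1.1 = e := congrArg (fun w : E => w.1) hx
      exact this ▸ x.1.2
    have hHE : H ≤ E := fun h hh => hC (Subgroup.mem_centralizer_iff.2 fun e he => by
      have hm' : (⟨h, hh⟩ : H)⁻¹ * (⟨e, hEH he⟩ : H)⁻¹ * ⟨h, hh⟩ * ⟨e, hEH he⟩ ∈ (ψ.ker ⊓ D : Subgroup H) :=
        ⟨comm_mem_ker ψ hQ _ _, Subgroup.mem_subgroupOf.2 (E.mul_mem (by
          simpa using (inferInstance : E.Normal).conj_mem _ (E.inv_mem he) h⁻¹) he)⟩
      rw [hbot, Subgroup.mem_bot] at hm'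
      have hm'' : h⁻¹ * e⁻¹ * h * e = 1 := congrArg Subtype.val hm'
      calc e * h = e * h * (h⁻¹ * e⁻¹ * h * e) := by rw [hm'', mul_one]
        _ = h * e := by group)
    have hR1 : Nat.card R ≤ 1 := by
      rw [hRdef, show H.map (QuotientGroup.mk' E) = ⊥ by
        rw [Subgroup.map_eq_bot_iff, QuotientGroup.ker_mk']; exact hHE, Subgroup.card_bot]
    exact hle.trans (le_trans (Nat.mul_le_mul hR1 hm8) (by norm_num))

/-- The bound in the presence of the involution. -/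
theorem Eight.bound {E F : Subgroup S} {a f : S} (P : Eight E F a f) : Nat.card Q ≤ 16 := by
  classical
  haveI : Fact (Nat.Prime 2) := ⟨Nat.prime_two⟩
  haveI := P.normal
  obtain ⟨M, hMn, hEM, hMK, hMc, hMs⟩ := P.exists_M
  by_cases hne : M = E
  · exact self_eight_bound ψ hψ hQ P.two P.elem P.card fun x hx => hne ▸ hMs x hx fun m hm =>
      Subgroup.mem_centralizer_iff.1 hx m (hne ▸ hm)
  haveI := hMn
  haveI := P.K_normal
  set K := Subgroup.centralizer (E : Set S) with hKdef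
  obtain ⟨hle, hstrict⟩ := section_split M H ψ hψ
  obtain ⟨hleK, -⟩ := section_split K H ψ hψ
  set R := H.map (QuotientGroup.mk' M) with hRdef
  set D := M.subgroupOf H with hDdef
  set m := Nat.card (D.map ψ) with hm
  set π := QuotientGroup.mk' M with hπ
  have hpi : ∀ x : S, π x = 1 ↔ x ∈ M := fun x => QuotientGroup.eq_one_iff x
  -- the squaring map on `D`
  let q : D →* H := MonoidHom.mk' (fun d => d.1 * d.1) fun u v => by
    apply Subtype.ext
    simp only [Subgroup.coe_mul]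
    calc u.1.1 * v.1.1 * (u.1.1 * v.1.1) = u.1.1 * (v.1.1 * u.1.1) * v.1.1 := by group
      _ = u.1.1 * (u.1.1 * v.1.1) * v.1.1 := by rw [hMc v.1.1 v.2 u.1.1 u.2]
      _ = _ := by group
  have hqker : ∀ d : q.ker, d.1.1.1 ∈ E := fun d => P.omega_le hMn hEM hMK hMc hMs d.1.2 (by
    rw [pow_two]; exact congrArg Subtype.val (MonoidHom.mem_ker.1 d.2))
  have hinj : Function.Injective (fun d : q.ker => (⟨d.1.1.1, hqker d⟩ : E)) := fun x y e =>
    Subtype.ext (Subtype.ext (Subtype.ext (congrArg (fun w : E => w.1) e)))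
  have hq8 : Nat.card q.ker ≤ 8 := P.card ▸ Nat.card_le_card_of_injective _ hinj
  have hqr : q.range ≤ ψ.ker ⊓ D := by
    rintro _ ⟨d, rfl⟩
    refine ⟨MonoidHom.mem_ker.2 ?_, D.mul_mem d.2 d.2⟩
    show ψ (d.1 * d.1) = 1
    rw [map_mul, ← pow_two, hQ]
  have hcount : m * Nat.card (ψ.ker ⊓ D : Subgroup H) = Nat.card q.range * Nat.card q.ker := by
    rw [hm, card_map_mul ψ D, ← Nat.card_congr (QuotientGroup.quotientKerEquivRange q).toEquiv]
    exact Subgroup.card_eq_card_quotient_mul_card_subgroup _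
  have hrle := Subgroup.card_le_of_le hqr
  have hm8 : m ≤ 8 := by
    refine Nat.le_of_mul_le_mul_right (?_ : m * Nat.card (ψ.ker ⊓ D : Subgroup H) ≤ 8 * _) Nat.card_pos
    rw [hcount, mul_comm 8]
    exact Nat.mul_le_mul hrle hq8
  obtain ⟨hI8, hnc⟩ := action_on_eight P.two P.elem P.card
  rw [← hKdef] at hI8 hnc
  have haa : π a * π a = 1 := by rw [← map_mul, P.inv, map_one]
  have hi4 : (∃ y ∈ K, y ∉ M) → M.index ≤ 4 := by
    rintro ⟨y, hyK, hyM⟩
    have hcov := P.cover hMn hEM hMK hMc hMs hne hyK hyM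
    rw [Subgroup.index_eq_card]
    refine (Nat.card_le_card_of_surjective (fun w : Bool × Bool =>
      (if w.1 then π a else 1) * (if w.2 then (π y)⁻¹ else 1)) fun u => ?_).trans (by simp)
    obtain ⟨s, rfl⟩ := QuotientGroup.mk'_surjective M u
    rcases hcov s with h | h | h | h
    · exact ⟨(false, false), by rw [(hpi s).2 h]; exact one_mul 1⟩
    · have := (hpi _).2 h
      rw [map_mul] at this
      exact ⟨(false, true), by rw [← inv_eq_of_mul_eq_one_right this]; exact one_mul _⟩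
    · have := (hpi _).2 h
      rw [map_mul] at this
      refine ⟨(true, false), ?_⟩
      show π a * 1 = π s
      rw [mul_one, ← inv_eq_of_mul_eq_one_right haa, inv_eq_of_mul_eq_one_right this]
    · have := (hpi _).2 h
      rw [map_mul, map_mul] at this
      refine ⟨(true, true), ?_⟩
      show π a * (π y)⁻¹ = π s
      rw [← eq_inv_of_mul_eq_one_left this, ← mul_assoc, haa, one_mul]
  have hKM : ¬ (∃ y ∈ K, y ∉ M) → K = M := fun h => le_antisymm (fun x hx => by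
    by_contra hx'; exact h ⟨x, hx, hx'⟩) hMK
  have hi8 : M.index ≤ 8 := by
    by_cases hy : ∃ y ∈ K, y ∉ M
    · exact (hi4 hy).trans (by norm_num)
    · rw [← hKM hy]; exact hI8
  have hR8 : Nat.card R ≤ 8 :=
    (Subgroup.card_le_card_group _).trans (by rw [← Subgroup.index_eq_card]; exact hi8)
  have hRidx : Nat.card R ≤ M.index := by rw [Subgroup.index_eq_card]; exact Subgroup.card_le_card_group _
  by_cases hm4 : m ≤ 4
  · by_cases hR4 : Nat.card R ≤ 4
    · exact hle.trans (Nat.mul_le_mul hR4 hm4)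
    have htop : R = ⊤ := eq_top_of_two P.two R hi8 (by omega)
    have hKeq := hKM fun hy => by have := hi4 hy; omega
    have h88 : K.index = 8 := by
      rw [hKeq]
      obtain ⟨k, hk⟩ := (P.two.to_quotient M).exists_card_eq
      rw [← Subgroup.index_eq_card] at hk
      have : k < 4 := (Nat.pow_lt_pow_iff_right (show 1 < 2 by norm_num)).1 (show 2 ^ k < 2 ^ 4 by omega)
      interval_cases k <;> omega
    obtain ⟨s, t, hst⟩ := hnc h88
    have hmem : ∀ u : S, ∃ x : H, π x.1 = π u := fun u => by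
      obtain ⟨x, hx, e⟩ : π u ∈ R := by rw [htop]; trivial
      exact ⟨⟨x, hx⟩, e⟩
    obtain ⟨x, hx⟩ := hmem s
    obtain ⟨y, hy⟩ := hmem t
    have := hstrict ⟨x⁻¹ * y⁻¹ * x * y, comm_mem_ker ψ hQ x y, fun h => hst ?_⟩
    · have := this.trans (Nat.mul_le_mul hR8 hm4)
      omega
    · rw [hKeq, ← hpi]
      have h' : π (x.1⁻¹ * y.1⁻¹ * x.1 * y.1) = 1 := (hpi _).2 h
      rw [map_mul, map_mul, map_mul, map_inv, map_inv] at h' ⊢
      rw [← hx, ← hy]; exact h'
  -- now the part inside `M` has order eight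
  have hm8' : m = 8 := by
    obtain ⟨k, hk⟩ := two_pow (Q := D.map ψ) fun q => Subtype.ext (hQ q.1)
    have : k < 4 := (Nat.pow_lt_pow_iff_right (show 1 < 2 by norm_num)).1 (show 2 ^ k < 2 ^ 4 by omega)
    interval_cases k <;> omega
  have hkpos := Nat.card_pos (α := (ψ.ker ⊓ D : Subgroup H))
  have hreq : q.range = ψ.ker ⊓ D := by
    refine Subgroup.eq_of_le_of_card_ge hqr (Nat.le_of_mul_le_mul_right (?_ : _ * 8 ≤ _ * 8) (by norm_num))
    rw [mul_comm, ← hm8', hcount]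
    exact Nat.mul_le_mul_left _ (hm8'.symm ▸ hq8)
  have hker8 : Nat.card q.ker = 8 := by
    rw [hreq, hm8', mul_comm] at hcount
    exact (Nat.eq_of_mul_eq_mul_left hkpos hcount).symm
  have hEH : E ≤ H := by
    intro e he
    obtain ⟨x, hx⟩ := ((Nat.bijective_iff_injective_and_card _).2 ⟨hinj, by rw [hker8, P.card]⟩).2 ⟨e, he⟩
    have : x.1.1.1 = e := congrArg (fun w : E => w.1) hx
    exact this ▸ x.1.1.2
  have hsqr : ∀ x : H, x ∈ ψ.ker → x.1 ∈ M → ∃ d, d ∈ M ∧ d ∈ H ∧ x.1 = d * d := fun x hx hxM => by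
    have : x ∈ q.range := hreq ▸ ⟨hx, Subgroup.mem_subgroupOf.2 hxM⟩
    obtain ⟨d, rfl⟩ := this
    exact ⟨d.1.1, d.2, d.1.2, rfl⟩
  have hcomE : ∀ h : H, ∀ e (he : e ∈ E), (⟨e, hEH he⟩ : H)⁻¹ * (h⁻¹)⁻¹ * ⟨e, hEH he⟩ * h⁻¹ ∈ ψ.ker ∧
      e⁻¹ * (h.1 * e * h.1⁻¹) ∈ E :=
    fun h e he => ⟨comm_mem_ker ψ hQ _ _, E.mul_mem (E.inv_mem he) (P.normal.conj_mem e he h.1)⟩
  -- the trivial case
  by_cases hDE : ∀ d ∈ M, d ∈ H → d ∈ E
  · have hHK : H ≤ K := fun h hh => Subgroup.mem_centralizer_iff.2 fun e he => by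
      obtain ⟨h1, h2⟩ := hcomE ⟨h, hh⟩ e he
      obtain ⟨d, hd, hdH, hd2⟩ := hsqr _ h1 (by
        simpa [mul_assoc] using hEM h2)
      have hd2' : e⁻¹ * (h * e * h⁻¹) = 1 := by
        rw [← P.elem.mul_self (hDE d hd hdH), ← hd2]
        simp [mul_assoc]
      exact (mul_inv_eq_iff_eq_mul.1 (inv_mul_eq_one.1 hd2').symm).symm
    have hR2 : Nat.card R ≤ 2 := by
      refine (Subgroup.card_le_of_le (Subgroup.map_mono hHK)).trans ?_
      by_cases hy : ∃ y ∈ K, y ∉ M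
      · obtain ⟨y, hyK, hyM⟩ := hy
        refine card_le_two (z := (π y)⁻¹) ?_
        rintro _ ⟨x, hx, rfl⟩
        by_cases hxM : x ∈ M
        · exact Or.inl ((hpi x).2 hxM)
        · have := (hpi _).2 (P.two_cosets hMn hEM hMK hMc hMs hne hyK hyM hx hxM)
          rw [map_mul] at this
          exact Or.inr (inv_eq_of_mul_eq_one_right this).symm
      · refine card_le_two (z := 1) ?_
        rintro _ ⟨x, hx, rfl⟩
        exact Or.inl ((hpi x).2 (hKM hy ▸ hx))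
    exact hle.trans (Nat.mul_le_mul hR2 hm8)
  push Not at hDE
  obtain ⟨d0, hd0M, hd0H, hd0E⟩ := hDE
  obtain ⟨i0, hwE, hw2⟩ := P.exists_root hMn hEM hMK hMc hMs hd0M hd0E
  set w := d0 ^ 2 ^ i0 with hwdef
  have hwM : w ∈ M := pow_mem hd0M _
  have hwH : w ∈ H := pow_mem hd0H _
  set z := w * w with hzdef
  have hzc : ∀ s, s * z * s⁻¹ = z := P.square_central hMn hEM hMK hMc hMs hwM hwE hw2
  have hz1 : z ≠ 1 := fun e => hwE (P.omega_le hMn hEM hMK hMc hMs hwM (by rw [pow_two]; exact e))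
  have hzF : z ∈ F := (P.memF z).2 ⟨hw2, by have := hzc a; rwa [P.ainv] at this⟩
  have heker : ∀ x : H, x ∈ ψ.ker → x.1 ∈ E → x.1 = 1 ∨ x.1 = z := fun x hx hxE => by
    obtain ⟨d, hd, -, hd2⟩ := hsqr x hx (hEM hxE)
    rw [hd2]
    by_cases hdE : d ∈ E
    · exact Or.inl (P.elem.mul_self hdE)
    · exact Or.inr (P.square_eq hMn hEM hMK hMc hMs hwM hwE hw2 hd hdE (hd2 ▸ hxE))
  have hact : ∀ h : H, ∀ e ∈ E, h.1 * e * h.1⁻¹ = e ∨ h.1 * e * h.1⁻¹ = e * z := fun h e he => by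
    obtain ⟨h1, h2⟩ := hcomE h e he
    have := heker _ h1 (by simpa [mul_assoc] using h2)
    simp only [Subgroup.coe_mul, Subgroup.coe_inv, inv_inv, mul_assoc] at this
    rcases this with r | r
    · exact Or.inl (inv_mul_eq_one.1 (by simpa [mul_assoc] using r)).symm
    · exact Or.inr (by rw [← r]; simp [mul_assoc])
  have hKEY : ∀ h : H, (h.1)⁻¹ * a ∈ M → False := by
    intro h hha
    obtain ⟨e, he, hef⟩ := (P.image f).2 (Or.inr rfl)
    have hsame : ∀ u ∈ M, a * u * a = h.1 * u * (h.1)⁻¹ := fun u hu => by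
      calc a * u * a = h.1 * ((h.1)⁻¹ * a * u * ((h.1)⁻¹ * a)⁻¹) * (h.1)⁻¹ * (a * a) := by group
        _ = _ := by rw [hMc _ hha u hu, mul_inv_cancel_right, P.inv, mul_one]
    have hfz : f = z := by
      rw [← hef, com, hsame e (hEM he)]
      rcases hact h e he with r | r <;> rw [r]
      · exact absurd (by rw [← hef, com, hsame e (hEM he), r, inv_mul_cancel]) P.fne
      · rw [inv_mul_cancel_left]
    have hcw : com a w ∈ E := P.com_mem_E hMn hEM hMK hMc hMs hwM hw2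
    have hm1 := comm_mem_ker ψ hQ (⟨w, hwH⟩ : H) h⁻¹
    have heq : com a w = ((⟨w, hwH⟩ : H)⁻¹ * (h⁻¹)⁻¹ * ⟨w, hwH⟩ * h⁻¹).1 := by
      rw [com, hsame w hwM]; simp [mul_assoc]
    obtain ⟨o1, o2⟩ := P.outer (hMK hwM) hwE hcw
    rcases heker _ hm1 (heq ▸ hcw) with r | r
    · exact o1 (heq.trans r)
    · exact o2 ((heq.trans r).trans hfz.symm)
  by_cases hR2 : Nat.card R ≤ 2
  · exact hle.trans (Nat.mul_le_mul hR2 hm8)
  by_cases hy : ∃ y ∈ K, y ∉ M
  · have := hi4 hy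
    have htop : R = ⊤ := eq_top_of_two P.two R hi8 (by omega)
    obtain ⟨h, hh, hha⟩ : π a ∈ R := by rw [htop]; trivial
    exact (hKEY ⟨h, hh⟩ (QuotientGroup.eq.1 hha)).elim
  have hKeq := hKM hy
  -- generators of `E`
  obtain ⟨e1, he1, he1f⟩ := (P.image f).2 (Or.inr rfl)
  have he1F : e1 ∉ F := fun r => P.fne (by rw [← he1f, com, ((P.memF e1).1 r).2, inv_mul_cancel])
  obtain ⟨p, hp, hp1, hpz, hpf⟩ : ∃ p ∈ F, p ≠ 1 ∧ p ≠ z ∧ (z ≠ f → p = f) := by
    by_cases hfz : z = f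
    · by_contra hcon
      push Not at hcon
      have := card_le_two (C := F) (z := z) fun x hx => by
        by_cases h1 : x = 1
        · exact Or.inl h1
        · by_cases h2 : x = z
          · exact Or.inr h2
          · exact absurd hfz (hcon x hx h1 h2).1
      rw [P.cardF] at this
      omega
    · exact ⟨f, P.f_mem, P.fne, fun e => hfz e.symm, fun _ => rfl⟩
  have hgenE : ∀ s t : S, s * p * s⁻¹ = t * p * t⁻¹ → s * e1 * s⁻¹ = t * e1 * t⁻¹ → t⁻¹ * s ∈ M := by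
    intro s t h1 h2
    rw [← hKeq, hKdef, Subgroup.mem_centralizer_iff]
    intro u hu
    have hfix : ∀ {v}, s * v * s⁻¹ = t * v * t⁻¹ → t⁻¹ * s * v * (t⁻¹ * s)⁻¹ = v := fun {v} hv => by
      calc t⁻¹ * s * v * (t⁻¹ * s)⁻¹ = t⁻¹ * (s * v * s⁻¹) * t := by group
        _ = v := by rw [hv]; group
    have hFfix : ∀ v ∈ F, t⁻¹ * s * v * (t⁻¹ * s)⁻¹ = v := fun v hv => by
      rcases four_cases P.cardF.le hzF hp hz1 hp1 hpz.symm
        (fun e => hpz (by rw [← P.elem.inv_eq (P.F_le hzF)]; exact eq_inv_of_mul_eq_one_right e)) hv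
        with r | r | r | r <;> rw [r]
      · group
      · exact hzc _
      · exact hfix h1
      · rw [← conj_mul, hzc, hfix h1]
    have : t⁻¹ * s * u * (t⁻¹ * s)⁻¹ = u := by
      rcases (P.image _).1 ⟨u, hu, rfl⟩ with r | r
      · refine hFfix u ((P.memF u).2 ⟨hu, ?_⟩)
        rw [(com_one_iff P.inv).1 r, mul_assoc, P.inv, mul_one]
      · have hmem : e1 * u ∈ F := by
          refine (P.memF _).2 ⟨E.mul_mem he1 hu, ?_⟩
          have h' : com a (e1 * u) = 1 := by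
            rw [com_mul P.elem P.inv (he1f ▸ P.F_le P.f_mem) hu, he1f, r, P.elem.mul_self (P.F_le P.f_mem)]
          rw [(com_one_iff P.inv).1 h', mul_assoc, P.inv, mul_one]
        calc t⁻¹ * s * u * (t⁻¹ * s)⁻¹
            = (t⁻¹ * s * e1 * (t⁻¹ * s)⁻¹)⁻¹ * (t⁻¹ * s * (e1 * u) * (t⁻¹ * s)⁻¹) := by group
          _ = u := by rw [hfix h2, hFfix _ hmem, inv_mul_cancel_left]
    exact (mul_inv_eq_iff_eq_mul.1 this).symm
  have hrep : ∀ u : R, ∃ h : H, π h.1 = u.1 := fun u => by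
    obtain ⟨x, hx, e⟩ := u.2
    exact ⟨⟨x, hx⟩, e⟩
  choose rep hrepe using hrep
  let g : R → Bool × Bool := fun u =>
    (decide ((rep u).1 * p * (rep u).1⁻¹ = p), decide ((rep u).1 * e1 * (rep u).1⁻¹ = e1))
  have hp' : p ∈ E := P.F_le hp
  have hg : Function.Injective g := by
    intro u v e
    simp only [g, Prod.mk.injEq, decide_eq_decide] at e
    have hsame : ∀ x ∈ E, ((rep u).1 * x * (rep u).1⁻¹ = x ↔ (rep v).1 * x * (rep v).1⁻¹ = x) →
        (rep u).1 * x * (rep u).1⁻¹ = (rep v).1 * x * (rep v).1⁻¹ := fun x hx hiff => by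
      by_cases hu : (rep u).1 * x * (rep u).1⁻¹ = x
      · rw [hu, hiff.1 hu]
      · rw [(hact _ x hx).resolve_left hu, (hact _ x hx).resolve_left fun hv => hu (hiff.2 hv)]
    have := hgenE _ _ (hsame p hp' e.1) (hsame e1 he1 e.2)
    apply Subtype.ext
    rw [← hrepe u, ← hrepe v]
    exact (QuotientGroup.eq.2 this).symm
  have hR4 : Nat.card R = 4 := by
    have h4 : Nat.card R ≤ 4 := (Nat.card_le_card_of_injective g hg).trans (by simp)
    obtain ⟨k, hk⟩ := ((P.two.to_quotient M).to_subgroup R).exists_card_eq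
    have : k < 3 := (Nat.pow_lt_pow_iff_right (show 1 < 2 by norm_num)).1 (show 2 ^ k < 2 ^ 3 by omega)
    interval_cases k <;> omega
  have hgs : Function.Surjective g :=
    ((Nat.bijective_iff_injective_and_card g).2 ⟨hg, by rw [hR4]; simp⟩).2
  by_cases hfz : z = f
  · exfalso
    obtain ⟨u, hu⟩ := hgs (true, false)
    simp only [g, Prod.mk.injEq, decide_eq_true_eq, decide_eq_false_iff_not] at hu
    refine hKEY (rep u) (hgenE a _ ?_ ?_)
    · rw [hu.1, P.ainv]; exact ((P.memF p).1 hp).2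
    · rw [(hact _ e1 he1).resolve_left hu.2, P.ainv, hfz, ← he1f, com, mul_inv_cancel_left]
  exfalso
  obtain rfl := hpf hfz
  obtain ⟨u1, hu1⟩ := hgs (false, true)
  obtain ⟨u0, hu0⟩ := hgs (true, false)
  simp only [g, Prod.mk.injEq, decide_eq_true_eq, decide_eq_false_iff_not] at hu1 hu0
  set h1 := rep u1
  set h0 := rep u0
  have l1p : h1.1 * p * h1.1⁻¹ = p * z := (hact _ p hp').resolve_left hu1.1
  have l0e : h0.1 * e1 * h0.1⁻¹ = e1 * z := (hact _ e1 he1).resolve_left hu0.2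
  have hae1 : a * e1 * a = e1 * p := by rw [← he1f, com, mul_inv_cancel_left]
  have hap : a * p * a = p := ((P.memF p).1 hp).2
  have haz : a * z * a = z := ((P.memF z).1 hzF).2
  have hzE : z ∈ E := P.F_le hzF
  have hzz : z * z = 1 := P.elem.mul_self hzE
  have hpp : p * p = 1 := P.elem.mul_self hp'
  have hpzc : p * z = z * p := P.elem.comm hp' hzE
  have act0p : ∀ v, h1.1⁻¹ * (v * z) * h1.1 = h1.1⁻¹ * v * h1.1 * z := fun v => by
    calc h1.1⁻¹ * (v * z) * h1.1 = h1.1⁻¹ * v * h1.1 * (h1.1⁻¹ * z * h1.1⁻¹⁻¹) := by group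
      _ = _ := by rw [hzc]
  have i1p : h1.1⁻¹ * p * h1.1 = p * z := by
    calc h1.1⁻¹ * p * h1.1 = h1.1⁻¹ * (p * z * z) * h1.1 := by rw [mul_assoc p z z, hzz, mul_one]
      _ = h1.1⁻¹ * (p * z) * h1.1 * z := act0p _
      _ = h1.1⁻¹ * (h1.1 * p * h1.1⁻¹) * h1.1 * z := by rw [l1p]
      _ = p * z := by group
  have i1e : h1.1⁻¹ * e1 * h1.1 = e1 := by
    calc h1.1⁻¹ * e1 * h1.1 = h1.1⁻¹ * (h1.1 * e1 * h1.1⁻¹) * h1.1 := by rw [hu1.2]
      _ = e1 := by group
  set c := h1.1⁻¹ * a * h1.1 * a with hcdef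
  have hcconj : ∀ x, c * x * c⁻¹ = h1.1⁻¹ * (a * (h1.1 * (a * x * a) * h1.1⁻¹) * a) * h1.1 := fun x => by
    rw [hcdef, mul_inv_rev, mul_inv_rev, mul_inv_rev, inv_inv, P.ainv]; group
  have cp : c * p * c⁻¹ = p := by
    rw [hcconj, hap, l1p, P.aconj_mul, hap, haz, act0p, i1p, mul_assoc, hzz, mul_one]
  have ce : c * e1 * c⁻¹ = e1 * z := by
    rw [hcconj, hae1, ← conj_mul, hu1.2, l1p, P.aconj_mul, P.aconj_mul, hae1, hap, haz,
      show e1 * p * (p * z) = e1 * z by rw [mul_assoc, ← mul_assoc p p, hpp, one_mul], act0p, i1e]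
  have hc0 : c⁻¹ * h0.1 ∈ M := hgenE _ _ (by rw [hu0.1, cp]) (by rw [l0e, ce])
  have hFfix : ∀ u ∈ F, u * h0.1 = h0.1 * u := fun u hu => by
    refine (mul_inv_eq_iff_eq_mul.1 ?_).symm
    rcases four_cases P.cardF.le hzF hp hz1 hp1 hpz.symm
      (fun e => hpz (by rw [← P.elem.inv_eq hzE]; exact eq_inv_of_mul_eq_one_right e)) hu with r | r | r | r <;> rw [r]
    · group
    · exact hzc _
    · exact hu0.1
    · rw [← conj_mul, hzc, hu0.1]
  set k := com a h0.1 with hkdef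
  have hk : k ∈ M := by
    refine hgenE (a * h0.1 * a) _ ?_ ?_
    · calc a * h0.1 * a * p * (a * h0.1 * a)⁻¹ = a * (h0.1 * (a * p * a) * h0.1⁻¹) * a := by
            rw [mul_inv_rev, mul_inv_rev, P.ainv]; group
        _ = h0.1 * p * h0.1⁻¹ := by rw [hap, hu0.1, hap]
    · calc a * h0.1 * a * e1 * (a * h0.1 * a)⁻¹ = a * (h0.1 * (a * e1 * a) * h0.1⁻¹) * a := by
            rw [mul_inv_rev, mul_inv_rev, P.ainv]; group
        _ = h0.1 * e1 * h0.1⁻¹ := by
            rw [hae1, ← conj_mul, l0e, hu0.1, P.aconj_mul, P.aconj_mul, hae1, haz, hap, mul_assoc e1 p z, hpzc,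
              ← mul_assoc e1 z p, mul_assoc, hpp, mul_one]
  have hfixe : ∀ {x}, x ∈ M → x * e1 * x⁻¹ = e1 := fun {x} hx => by
    rw [← Subgroup.mem_centralizer_iff.1 (hMK hx) e1 he1, mul_inv_cancel_right]
  have hkodd : ¬ Ev M E k := by
    intro hev
    rcases P.parity hMn hEM hMK hMc hMs hne hFfix hev with r | r
    · exact hu0.2 (hfixe r)
    · have h5 := hfixe r
      have h5' : a * (h0.1 * e1 * h0.1⁻¹) * a = e1 := by
        rw [mul_inv_rev, P.ainv] at h5
        simpa [mul_assoc] using h5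
      rw [l0e, P.aconj_mul, hae1, haz, mul_assoc, mul_eq_left] at h5'
      exact hpz (by rw [eq_inv_of_mul_eq_one_left h5', P.elem.inv_eq hzE])
  have hkE : k ∉ E := fun r => hkodd (P.ev_of_E hMn hEM hMK hMc hMs r)
  obtain ⟨i, huE, hu2⟩ := P.exists_root hMn hEM hMK hMc hMs hk hkE
  set u := k ^ 2 ^ i with hudef
  have huM : u ∈ M := pow_mem hk _
  have huz : u * u = z := P.square_eq hMn hEM hMK hMc hMs hwM hwE hw2 huM huE hu2
  have huH : u ∈ H := by
    have := H.mul_mem hwH (hEH (P.coset_eq hMn hEM hMK hMc hMs hwM hwE hw2 huM huE hu2))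
    rwa [mul_inv_cancel_left] at this
  have hak : a * k * a = k⁻¹ := com_inverted P.inv _
  have hau : a * u * a = u * z := by
    have hd : ∀ n : ℕ, a * k ^ n * a = (k⁻¹) ^ n := by
      intro n
      induction n with
      | zero => simp [P.inv]
      | succ n ih => rw [pow_succ, P.aconj_mul, ih, hak, pow_succ]
    rw [hudef, hd, inv_pow, ← hudef]
    refine inv_eq_of_mul_eq_one_right ?_
    rw [← mul_assoc, huz, hzz]
  have hζ : h1.1 * u * h1.1⁻¹ = u ∨ h1.1 * u * h1.1⁻¹ = u * z := by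
    have hmem := comm_mem_ker ψ hQ (⟨u, huH⟩ : H) h1⁻¹
    have huh : h1.1 * u * h1.1⁻¹ ∈ M := hMn.conj_mem u huM h1.1
    have hsqh : h1.1 * u * h1.1⁻¹ * (h1.1 * u * h1.1⁻¹) ∈ E := by
      rw [conj_mul]; exact P.normal.conj_mem _ hu2 _
    have hnh : h1.1 * u * h1.1⁻¹ ∉ E := fun r => huE (by
      have := P.normal.conj_mem _ r h1.1⁻¹
      rwa [show h1.1⁻¹ * (h1.1 * u * h1.1⁻¹) * h1.1⁻¹⁻¹ = u by group] at this)
    have hE' := P.coset_eq hMn hEM hMK hMc hMs huM huE hu2 huh hnh hsqh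
    have := heker _ hmem (by simpa [mul_assoc] using hE')
    simp only [Subgroup.coe_mul, Subgroup.coe_inv, inv_inv, mul_assoc] at this
    rcases this with r | r
    · exact Or.inl (inv_mul_eq_one.1 (by simpa [mul_assoc] using r)).symm
    · exact Or.inr (by rw [← r]; simp [mul_assoc])
  have hcu : c * u * c⁻¹ = u := by
    rw [hcconj, hau, ← conj_mul, hzc h1.1]
    rcases hζ with r | r <;> rw [r]
    · rw [P.aconj_mul, hau, haz, mul_assoc u, hzz, mul_one]
      calc h1.1⁻¹ * u * h1.1 = h1.1⁻¹ * (h1.1 * u * h1.1⁻¹) * h1.1 := by rw [r]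
        _ = u := by group
    · rw [mul_assoc u z z, hzz, mul_one, hau]
      calc h1.1⁻¹ * (u * z) * h1.1 = h1.1⁻¹ * (h1.1 * u * h1.1⁻¹) * h1.1 := by rw [r]
        _ = u := by group
  have h0u : h0.1⁻¹ * u * h0.1 = u := by
    have hmu := hMc _ hc0 u huM
    calc h0.1⁻¹ * u * h0.1 = h0.1⁻¹ * (c * u * c⁻¹) * h0.1 := by rw [hcu]
      _ = (c⁻¹ * h0.1)⁻¹ * u * (c⁻¹ * h0.1) := by group
      _ = u := by rw [mul_assoc, ← hmu, inv_mul_cancel_left]
  -- squares
  have hzfix : ∀ e, h0.1 * (e * z) * h0.1⁻¹ = h0.1 * e * h0.1⁻¹ * z := fun e => by rw [← conj_mul, hzc]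
  have hsqM : h0.1 * h0.1 ∈ M := by
    have h' := hgenE (h0.1 * h0.1) 1 ?_ ?_
    · simpa using h'
    · calc h0.1 * h0.1 * p * (h0.1 * h0.1)⁻¹ = h0.1 * (h0.1 * p * h0.1⁻¹) * h0.1⁻¹ := by group
        _ = 1 * p * 1⁻¹ := by rw [hu0.1, hu0.1]; group
    · calc h0.1 * h0.1 * e1 * (h0.1 * h0.1)⁻¹ = h0.1 * (h0.1 * e1 * h0.1⁻¹) * h0.1⁻¹ := by group
        _ = 1 * e1 * 1⁻¹ := by rw [l0e, hzfix, l0e, mul_assoc, hzz]; group
  obtain ⟨d, hd, -, hdd⟩ := hsqr (h0 * h0) (by rw [MonoidHom.mem_ker, map_mul, ← pow_two, hQ]) hsqM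
  have hdd' : h0.1 * h0.1 = d * d := hdd
  have hah0 : a * h0.1 * a = h0.1 * k := by rw [hkdef, com, mul_inv_cancel_left]
  have hX : h0.1⁻¹ * k * h0.1 * k = (d⁻¹) ^ 4 := by
    have e := P.norm_sq hMn hEM hMK hMc hMs hd
    rw [← hdd', P.aconj_mul, hah0, hdd'] at e
    calc h0.1⁻¹ * k * h0.1 * k = (h0.1 * h0.1)⁻¹ * (h0.1 * k * (h0.1 * k)) := by group
      _ = (d * d)⁻¹ * (d * d)⁻¹ := by rw [e, hdd']
      _ = _ := by group
  have hkh : h0.1⁻¹ * k * h0.1 ∈ M := by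
    have := hMn.conj_mem k hk h0.1⁻¹
    rwa [inv_inv] at this
  have hcm : Commute (h0.1⁻¹ * k * h0.1) k := hMc _ hkh k hk
  obtain ⟨t, e, he, hde⟩ := P.generates hMn hEM hMK hMc hMs hk hkodd (M.inv_mem hd)
  have hpw : (d⁻¹ ^ 4) ^ 2 ^ i = 1 := by
    have hkk : k ^ (4 * 2 ^ i) = 1 := by
      rw [show 4 * 2 ^ i = 2 ^ i * 2 * 2 by ring, pow_mul, pow_mul, ← hudef, pow_two, pow_two, huz, hzz]
    have he4 : e ^ (4 * 2 ^ i) = 1 := by
      rw [show 4 * 2 ^ i = 2 * (2 * 2 ^ i) by ring, pow_mul, P.elem.2 e he, one_pow]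
    rw [← pow_mul, hde, (show Commute (k ^ t) e from hMc _ (M.zpow_mem hk t) _ (hEM he)).mul_pow, he4, mul_one,
      ← zpow_natCast (k ^ t), ← zpow_mul, mul_comm, zpow_mul, zpow_natCast, hkk, one_zpow]
  rw [← hX, hcm.mul_pow, show (h0.1⁻¹ * k * h0.1) ^ 2 ^ i = h0.1⁻¹ * u * h0.1 by
    rw [hudef]; simpa using conj_pow (a := h0.1⁻¹) (b := k) (i := 2 ^ i), ← hudef, h0u, huz] at hpw
  exact hz1 hpw

end

end Cfsg.Agent.TwoGroups.SelfCentralEight
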