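import Cfsg.Agent.TwoGroups.SelfCentralEight.Eight

/-! The parity of commutators with the involution. -/

set_option autoImplicit false
set_option linter.unusedSectionVars false

namespace Cfsg.Agent.TwoGroups.SelfCentralEight

open NormalRankTwo

variable {S : Type*} [Group S] [Finite S]

/-- A square times an element of `E`. -/
def Ev (M E : Subgroup S) (x : S) : Prop := ∃ m ∈ M, ∃ e ∈ E, x = m * m * e

namespace Eight

variable {E F : Subgroup S} {a f : S} (P : Eight E F a f)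
variable {M : Subgroup S} (hMn : M.Normal) (hEM : E ≤ M) (hMK : M ≤ Subgroup.centralizer (E : Set S))
  (hMc : ∀ x ∈ M, ∀ y ∈ M, x * y = y * x)
  (hMs : ∀ x ∈ Subgroup.centralizer (E : Set S), (∀ m ∈ M, m * x = x * m) → x ∈ M)
include P hMn hEM hMK hMc hMs

theorem ev_mem {x : S} (h : Ev M E x) : x ∈ M := by
  obtain ⟨m, hm, e, he, rfl⟩ := h
  exact M.mul_mem (M.mul_mem hm hm) (hEM he)

theorem ev_of_E {e : S} (he : e ∈ E) : Ev M E e := ⟨1, M.one_mem, e, he, by group⟩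

theorem ev_mul {x y : S} (hx : Ev M E x) (hy : Ev M E y) : Ev M E (x * y) := by
  obtain ⟨m, hm, e, he, rfl⟩ := hx
  obtain ⟨n, hn, d, hd, rfl⟩ := hy
  refine ⟨m * n, M.mul_mem hm hn, e * d, E.mul_mem he hd, ?_⟩
  have hc := hMc e (hEM he) _ (M.mul_mem hn hn)
  calc m * m * e * (n * n * d) = m * m * (e * (n * n)) * d := by group
    _ = m * m * (n * n) * (e * d) := by rw [hc]; group
    _ = m * (m * n) * n * (e * d) := by group
    _ = m * (n * m) * n * (e * d) := by rw [hMc m hm n hn]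
    _ = _ := by group

theorem ev_inv {x : S} (hx : Ev M E x) : Ev M E x⁻¹ := by
  obtain ⟨m, hm, e, he, rfl⟩ := hx
  refine ⟨m⁻¹, M.inv_mem hm, e⁻¹, E.inv_mem he, ?_⟩
  rw [mul_inv_rev, mul_inv_rev, hMc _ (M.inv_mem (hEM he)) _ (M.mul_mem (M.inv_mem hm) (M.inv_mem hm))]

theorem ev_conj {x : S} (hx : Ev M E x) (s : S) : Ev M E (s * x * s⁻¹) := by
  obtain ⟨m, hm, e, he, rfl⟩ := hx
  exact ⟨s * m * s⁻¹, hMn.conj_mem m hm s, s * e * s⁻¹, P.normal.conj_mem e he s, by group⟩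

theorem exists_outer (hne : M ≠ E) : ∃ x ∈ M, x ∉ E ∧ x * x ∈ E := by
  haveI := hMn
  haveI := P.normal
  obtain ⟨c, hc, hcE, hc2, -⟩ := exists_central_mod P.two E M (lt_of_le_of_ne hEM hne.symm)
  exact ⟨c, hc, hcE, by rwa [← pow_two]⟩

theorem odd_mul {x y : S} (hx : x ∈ M) (hxo : ¬ Ev M E x) (hy : y ∈ M) (hyo : ¬ Ev M E y) : Ev M E (x * y) := by
  classical
  haveI := P.normal
  obtain ⟨x0, hx0, hx0E, hx02⟩ : ∃ x ∈ M, x ∉ E ∧ x * x ∈ E :=
    P.exists_outer hMn hEM hMK hMc hMs fun e => hxo (P.ev_of_E hMn hEM hMK hMc hMs (e ▸ hx))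
  set π := QuotientGroup.mk' E
  have hpi : ∀ u : S, π u = 1 ↔ u ∈ E := fun u => QuotientGroup.eq_one_iff u
  let q : M →* S ⧸ E := MonoidHom.mk' (fun m => π (m.1 * m.1)) fun u v => by
    rw [← map_mul, Subgroup.coe_mul]
    congr 1
    calc u.1 * v.1 * (u.1 * v.1) = u.1 * (v.1 * u.1) * v.1 := by group
      _ = u.1 * (u.1 * v.1) * v.1 := by rw [hMc v.1 v.2 u.1 u.2]
      _ = _ := by group
  let W : Subgroup M := q.range.comap (π.comp M.subtype)
  have hW : ∀ u : M, u ∈ W ↔ Ev M E u.1 := fun u => by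
    constructor
    · rintro ⟨m, hm⟩
      exact ⟨m.1, m.2, (m.1 * m.1)⁻¹ * u.1, QuotientGroup.eq.1 hm, by group⟩
    · rintro ⟨m, hm, e, he, h⟩
      refine ⟨⟨m, hm⟩, ?_⟩
      show π (m * m) = π u.1
      rw [h, map_mul π (m * m) e, (hpi e).2 he, mul_one]
  have hker : Nat.card q.ker ≤ 16 := by
    have hmem : ∀ u : q.ker, u.1.1 ∈ E ∨ x0⁻¹ * u.1.1 ∈ E := fun u => by
      by_cases h : u.1.1 ∈ E
      · exact Or.inl h
      · exact Or.inr (P.coset_eq hMn hEM hMK hMc hMs hx0 hx0E hx02 u.1.2 h ((hpi _).1 u.2))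
    refine (Nat.card_le_card_of_injective (fun u : q.ker => (if h : u.1.1 ∈ E then ((false, ⟨u.1.1, h⟩) : Bool × E)
      else (true, ⟨x0⁻¹ * u.1.1, (hmem u).resolve_left h⟩))) fun u v e => ?_).trans ?_
    · refine Subtype.ext (Subtype.ext ?_)
      by_cases hu : u.1.1 ∈ E <;> by_cases hv : v.1.1 ∈ E <;> simp [hu, hv] at e
      · rw [e]
      · rw [e]
    · rw [Nat.card_prod, P.card]; simp
  have hWcard : Nat.card W = Nat.card q.range * 8 := by
    rw [← card_map_mul (π.comp M.subtype) W]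
    have hk : ((π.comp M.subtype).ker ⊓ W : Subgroup M) = E.subgroupOf M := by
      ext u
      exact ⟨fun h => Subgroup.mem_subgroupOf.2 ((hpi _).1 h.1),
        fun h => ⟨(hpi _).2 (Subgroup.mem_subgroupOf.1 h),
          (hW u).2 (P.ev_of_E hMn hEM hMK hMc hMs (Subgroup.mem_subgroupOf.1 h))⟩⟩
    have hm : W.map (π.comp M.subtype) = q.range := by
      refine Subgroup.map_comap_eq_self ?_
      rintro _ ⟨m, rfl⟩
      exact ⟨m * m, rfl⟩
    rw [hm, hk, Nat.card_congr (Subgroup.subgroupOfEquivOfLe hEM).toEquiv, P.card]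
  have hidx : W.index = 2 := by
    have h1 := W.card_mul_index
    have h2 := Subgroup.card_eq_card_quotient_mul_card_subgroup q.ker
    rw [Nat.card_congr (QuotientGroup.quotientKerEquivRange q).toEquiv] at h2
    have hne1 : W.index ≠ 1 := fun h => hxo ((hW ⟨x, hx⟩).1 (by rw [Subgroup.index_eq_one.1 h]; trivial))
    have hpos : W.index ≠ 0 := Subgroup.index_ne_zero_of_finite
    have hr := Nat.card_pos (α := q.range)
    rw [hWcard, h2] at h1
    have : W.index ≤ 2 := by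
      refine Nat.le_of_mul_le_mul_left (?_ : Nat.card q.range * 8 * W.index ≤ Nat.card q.range * 8 * 2) (by omega)
      rw [h1, mul_assoc]
      exact Nat.mul_le_mul_left _ hker
    omega
  exact (hW (⟨x, hx⟩ * ⟨y, hy⟩)).1 ((Subgroup.mul_mem_iff_of_index_two hidx).2
    (iff_of_false (fun h => hxo ((hW _).1 h)) (fun h => hyo ((hW _).1 h))))

/-- An element which is not even generates modulo `E`. -/
theorem generates {k : S} (hk : k ∈ M) (hko : ¬ Ev M E k) {m : S} (hm : m ∈ M) :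
    ∃ t : ℤ, ∃ e ∈ E, m = k ^ t * e := by
  have step : ∀ m ∈ M, ∃ t : ℤ, ∃ n ∈ M, ∃ e ∈ E, m = k ^ t * (n * n) * e := by
    intro m hm
    by_cases h : Ev M E m
    · obtain ⟨n, hn, e, he, rfl⟩ := h
      exact ⟨0, n, hn, e, he, by group⟩
    · obtain ⟨n, hn, e, he, h'⟩ := P.odd_mul hMn hEM hMK hMc hMs hk hko hm h
      exact ⟨-1, n, hn, e, he, by rw [mul_assoc, ← h']; group⟩
  have iter : ∀ j : ℕ, ∀ m ∈ M, ∃ t : ℤ, ∃ n ∈ M, ∃ e ∈ E, m = k ^ t * n ^ 2 ^ j * e := by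
    intro j
    induction j with
    | zero => exact fun m hm => ⟨0, m, hm, 1, E.one_mem, by simp⟩
    | succ j ih =>
      intro m hm
      obtain ⟨t, n, hn, e, he, rfl⟩ := ih m hm
      obtain ⟨u, p, hp, d, hd, rfl⟩ := step n hn
      refine ⟨t + u * (2 ^ j : ℕ), p, hp, d ^ 2 ^ j * e, E.mul_mem (pow_mem hd _) he, ?_⟩
      have c1 : Commute (k ^ u) (p * p) := hMc _ (M.zpow_mem hk u) _ (M.mul_mem hp hp)
      have c2 : Commute (k ^ u * (p * p)) d :=
        hMc _ (M.mul_mem (M.zpow_mem hk u) (M.mul_mem hp hp)) _ (hEM hd)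
      rw [c2.mul_pow, c1.mul_pow, zpow_add, ← pow_two p, ← pow_mul, ← pow_succ', ← zpow_natCast (k ^ u) (2 ^ j),
        ← zpow_mul]
      group
  haveI : Fact (Nat.Prime 2) := ⟨Nat.prime_two⟩
  obtain ⟨N, hN⟩ := (P.two.to_subgroup M).exists_card_eq
  obtain ⟨t, n, hn, e, he, h⟩ := iter N m hm
  refine ⟨t, e, he, ?_⟩
  have h1 : n ^ 2 ^ N = 1 := by
    have : (⟨n, hn⟩ : M) ^ Nat.card M = 1 := pow_card_eq_one'
    rw [hN] at this
    exact congrArg Subtype.val this
  rw [h, h1, mul_one]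

/-- An element fixing `F` whose commutator with `a` is even lies in `M` or `aM`. -/
theorem parity (hne : M ≠ E) {h : S} (hF : ∀ u ∈ F, u * h = h * u) (hev : Ev M E (com a h)) :
    h ∈ M ∨ a * h ∈ M := by
  obtain ⟨m, hm, e, he, hk⟩ := hev
  obtain ⟨x0, hx0, hx0E, hx02⟩ := P.exists_outer hMn hEM hMK hMc hMs hne
  have hcom : com a (h * m) = e * (m * (a * m * a)) := by
    rw [P.com_mul', hk, hMc _ (M.inv_mem hm) _ (M.mul_mem (M.mul_mem hm hm) (hEM he)), inv_mul_cancel_right, com,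
      hMc (m * m) (M.mul_mem hm hm) e (hEM he)]
    group
  have hcE : com a (h * m) ∈ E := hcom ▸ E.mul_mem he (P.F_le (P.norm_mem hMn hEM hMK hMc hMs hm))
  obtain ⟨w, hw, hwk⟩ : ∃ w ∈ M, com a w = com a (h * m) := by
    obtain ⟨e1, he1, hef⟩ := (P.image f).2 (Or.inr rfl)
    obtain ⟨o1, o2⟩ := P.outer (hMK hx0) hx0E (P.com_mem_E hMn hEM hMK hMc hMs hx0 hx02)
    rcases P.Fcases (P.com_mem (P.com_mem_E hMn hEM hMK hMc hMs hx0 hx02)) o1 o2 (P.com_mem hcE) with r | r | r | r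
    · exact ⟨1, M.one_mem, by rw [r, (com_one_iff P.inv).2 (by group)]⟩
    · exact ⟨e1, hEM he1, by rw [r, hef]⟩
    · exact ⟨x0, hx0, r.symm⟩
    · refine ⟨e1 * x0, M.mul_mem (hEM he1) hx0, ?_⟩
      rw [r, P.com_mul', hef, hMc _ (M.inv_mem hx0) f (hEM (P.F_le P.f_mem)), inv_mul_cancel_right]
  have h0 : com a (h * m * w) = 1 := by
    rw [P.com_mul', hwk, hMc _ (M.inv_mem hw) _ (hEM hcE), inv_mul_cancel_right, P.elem.mul_self hcE]
  have hFw : ∀ u ∈ F, u * (h * m * w) = h * m * w * u := fun u hu => by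
    have c1 : Commute u h := hF u hu
    have c2 : Commute u m := P.commutesF (hMK hm) u hu
    have c3 : Commute u w := P.commutesF (hMK hw) u hu
    exact ((c1.mul_right c2).mul_right c3).eq
  rcases P.pin _ hFw ((com_one_iff P.inv).1 h0) with r | r
  · refine Or.inl ?_
    have := M.mul_mem (M.mul_mem (hEM (P.F_le r)) (M.inv_mem hw)) (M.inv_mem hm)
    rwa [show h * m * w * w⁻¹ * m⁻¹ = h by group] at this
  · refine Or.inr ?_
    have := M.mul_mem (M.mul_mem (hEM (P.F_le r)) (M.inv_mem hw)) (M.inv_mem hm)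
    rwa [show a * (h * m * w) * w⁻¹ * m⁻¹ = a * h by group] at this

theorem inK {h : S} (hK : h ∈ Subgroup.centralizer (E : Set S)) (h' : h ∈ M ∨ a * h ∈ M) : h ∈ M :=
  h'.resolve_right fun r => P.a_notMem (by
    have := mul_mem (hMK r) (inv_mem hK)
    rwa [mul_inv_cancel_right] at this)

/-- Inverted elements of the centraliser of `E` lie in `M`. -/
theorem inverted_mem (hne : M ≠ E) : ∀ q ∈ Subgroup.centralizer (E : Set S), a * q * a = q⁻¹ → q ∈ M := by
  have base : ∀ q ∈ Subgroup.centralizer (E : Set S), a * q * a = q⁻¹ → q * q ∈ M → q ∈ M := by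
    intro q hq hinv h2
    by_cases hev : Ev M E (q * q)
    · refine P.inK hMn hEM hMK hMc hMs hq (P.parity hMn hEM hMK hMc hMs hne (P.commutesF hq) ?_)
      rw [com, hinv, ← mul_inv_rev]
      exact P.ev_inv hMn hEM hMK hMc hMs hev
    · refine hMs q hq fun m hm => ?_
      obtain ⟨t, e, he, rfl⟩ := P.generates hMn hEM hMK hMc hMs h2 hev hm
      have c1 : Commute ((q * q) ^ t) q := ((Commute.refl q).mul_left (Commute.refl q)).zpow_left t
      exact (c1.mul_left (Subgroup.mem_centralizer_iff.1 hq e he)).eq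
  have key : ∀ n : ℕ, ∀ q ∈ Subgroup.centralizer (E : Set S), a * q * a = q⁻¹ → q ^ 2 ^ n ∈ M → q ∈ M := by
    intro n
    induction n with
    | zero => intro q _ _ h; rwa [pow_zero, pow_one] at h
    | succ n ih =>
      intro q hq hinv h
      refine base q hq hinv (ih _ (mul_mem hq hq) ?_ ?_)
      · rw [P.aconj_mul, hinv, mul_inv_rev]
      · rwa [← pow_two, ← pow_mul, ← pow_succ']
  intro q hq hinv
  obtain ⟨n, hn⟩ := P.two q
  exact key n q hq hinv (by rw [hn]; exact M.one_mem)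

theorem com_K_mem (hne : M ≠ E) {h : S} (hk : com a h ∈ Subgroup.centralizer (E : Set S)) : com a h ∈ M :=
  P.inverted_mem hMn hEM hMK hMc hMs hne _ hk (com_inverted P.inv h)

theorem com_inK {y : S} (hy : y ∈ Subgroup.centralizer (E : Set S)) :
    com a y ∈ Subgroup.centralizer (E : Set S) := mul_mem (inv_mem hy) (P.aconj_mem P.K_normal hy)

theorem com_odd (hne : M ≠ E) {y : S} (hy : y ∈ Subgroup.centralizer (E : Set S)) (hyM : y ∉ M) :
    ¬ Ev M E (com a y) := fun h =>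
  hyM (P.inK hMn hEM hMK hMc hMs hy (P.parity hMn hEM hMK hMc hMs hne (P.commutesF hy) h))

theorem ev_com_mul (hne : M ≠ E) {h y : S} (hh : com a h ∈ M) (hho : ¬ Ev M E (com a h))
    (hy : y ∈ Subgroup.centralizer (E : Set S)) (hyM : y ∉ M) : Ev M E (com a (h * y)) := by
  rw [P.com_mul']
  refine P.odd_mul hMn hEM hMK hMc hMs ?_ ?_
    (P.com_K_mem hMn hEM hMK hMc hMs hne (P.com_inK hMn hEM hMK hMc hMs hy)) (P.com_odd hMn hEM hMK hMc hMs hne hy hyM)
  · have := hMn.conj_mem _ hh y⁻¹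
    rwa [inv_inv] at this
  · intro h'
    refine hho ?_
    have := P.ev_conj hMn hEM hMK hMc hMs h' y
    rwa [show y * (y⁻¹ * com a h * y) * y⁻¹ = com a h by group] at this

/-- The centraliser of `E` is at most twice `M`. -/
theorem two_cosets (hne : M ≠ E) {x y : S} (hx : x ∈ Subgroup.centralizer (E : Set S)) (hxM : x ∉ M)
    (hy : y ∈ Subgroup.centralizer (E : Set S)) (hyM : y ∉ M) : x * y ∈ M :=
  P.inK hMn hEM hMK hMc hMs (mul_mem hx hy) (P.parity hMn hEM hMK hMc hMs hne (P.commutesF (mul_mem hx hy))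
    (P.ev_com_mul hMn hEM hMK hMc hMs hne (P.com_K_mem hMn hEM hMK hMc hMs hne (P.com_inK hMn hEM hMK hMc hMs hx))
      (P.com_odd hMn hEM hMK hMc hMs hne hx hxM) hy hyM))

end Eight

end Cfsg.Agent.TwoGroups.SelfCentralEight
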