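import Cfsg.Agent.TwoGroups.SelfCentralEight.Basic

/-! A normal elementary abelian subgroup of order sixteen which is self-centralising. -/

set_option autoImplicit false
set_option linter.unusedSectionVars false

namespace Cfsg.Agent.TwoGroups.SelfCentralEight

open NormalRankTwo

variable {S : Type*} [Group S] [Finite S]

theorem four_cases {F : Subgroup S} (hF : Nat.card F ≤ 4) {z p : S} (hz : z ∈ F) (hp : p ∈ F) (hz1 : z ≠ 1)
    (hp1 : p ≠ 1) (hzp : z ≠ p) (hzp1 : z * p ≠ 1) {u : S} (hu : u ∈ F) : u = 1 ∨ u = z ∨ u = p ∨ u = z * p := by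
  classical
  haveI := Fintype.ofFinite F
  by_contra hcon
  push Not at hcon
  obtain ⟨h1, h2, h3, h4⟩ := hcon
  have : ({1, z, p, z * p, u} : Finset S).card = 5 := by
    rw [Finset.card_insert_of_notMem, Finset.card_insert_of_notMem, Finset.card_insert_of_notMem,
      Finset.card_insert_of_notMem, Finset.card_singleton]
    · simp [h4.symm]
    · simp [h3.symm, hz1]
    · simp [hzp, h2.symm, hp1]
    · simp [hz1.symm, hp1.symm, hzp1.symm, h1.symm]
  have hle := Finset.card_le_card (show ({1, z, p, z * p, u} : Finset S) ⊆ (F : Set S).toFinset from fun w hw => by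
    simp only [Finset.mem_insert, Finset.mem_singleton] at hw
    rw [Set.mem_toFinset]
    rcases hw with rfl | rfl | rfl | rfl | rfl
    exacts [F.one_mem, hz, hp, F.mul_mem hz hp, hu])
  rw [Nat.card_eq_fintype_card] at hF
  simp only [Set.toFinset_card, SetLike.coe_sort_coe] at hle
  omega

theorem card_le_two {C : Subgroup S} {z : S} (h : ∀ x ∈ C, x = 1 ∨ x = z) : Nat.card C ≤ 2 := by
  classical
  refine (Nat.card_le_card_of_injective (fun x : C => decide (x.1 = 1)) fun x y e => ?_).trans (by simp)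
  simp only [decide_eq_decide] at e
  refine Subtype.ext ?_
  rcases h _ x.2 with hx | hx <;> rcases h _ y.2 with hy | hy <;> first | (rw [hx, hy]; done) | simp_all

/-- Multiplying by an element of an elementary group multiplies the commutator. -/
theorem com_mul {E : Subgroup S} [E.Normal] (hE : Elem E) {a : S} (ha : a * a = 1) {x e : S}
    (hk : com a x ∈ E) (he : e ∈ E) : com a (x * e) = com a x * com a e := by
  have hbb : ∀ y : S, a * (a * y) = y := fun y => by rw [← mul_assoc, ha, one_mul]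
  calc com a (x * e) = e⁻¹ * com a x * (a * e * a) := by simp only [com, mul_inv_rev, mul_assoc, hbb]
    _ = com a x * e⁻¹ * (a * e * a) := by rw [hE.comm (E.inv_mem he) hk]
    _ = _ := by rw [com, com, mul_assoc _ e⁻¹]

theorem com_one_iff {a x : S} (ha : a * a = 1) : com a x = 1 ↔ a * x = x * a := by
  constructor
  · intro h
    have : x = a * x * a := inv_mul_eq_one.1 h
    calc a * x = a * x * (a * a) := by rw [ha, mul_one]
      _ = x * a := by rw [← mul_assoc, ← this]
  · intro h
    rw [com, h, mul_assoc x a a, ha, mul_one, inv_mul_cancel]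

theorem invol_inv {a : S} (ha : a * a = 1) : a⁻¹ = a := inv_eq_of_mul_eq_one_right ha

theorem com_of_central {E : Subgroup S} [E.Normal] {c x : S} (hc : c * c = 1) (h : c⁻¹ * (x * c * x⁻¹) ∈ E) :
    com c x ∈ E := by
  have h' := (inferInstance : E.Normal).conj_mem _ h x⁻¹
  convert h' using 1
  simp only [com, invol_inv hc, inv_inv]
  group

theorem fix_of_inverted {E : Subgroup S} (hE : Elem E) {a x : S} (ha : a * a = 1) (hk : com a x ∈ E) :
    a * com a x * a = com a x := by rw [com_inverted ha, hE.inv_eq hk]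

section
variable {E : Subgroup S} [E.Normal] (hE : Elem E) (hE16 : Nat.card E = 16)
  (hK : ∀ x, (∀ e ∈ E, e * x = x * e) → x ∈ E)
include hE hE16 hK

/-- The bound, given an involution central modulo `E` with four fixed points. -/
theorem bound_of_central (h2 : IsPGroup 2 S) {a : S} (ha : a * a = 1)
    (hF : ∀ C : Subgroup S, (∀ e ∈ C, e ∈ E ∧ a * e * a = e) → Nat.card C ≤ 4)
    (hR : E.index ≤ 4 ∧ (∀ s : S, a⁻¹ * (s * a * s⁻¹) ∈ E) ∧ a ∉ E ∨
      E.index ≤ 8 ∧ (∀ c : S, (∀ s : S, c⁻¹ * (s * c * s⁻¹) ∈ E) → c ∈ E ∨ a * c ∈ E))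
    (H : Subgroup S) {Q : Type*} [Group Q] (ψ : H →* Q) (hψ : Function.Surjective ψ) (hQ : ∀ q : Q, q ^ 2 = 1) :
    Nat.card Q ≤ 16 := by
  classical
  haveI : Finite Q := Finite.of_surjective ψ hψ
  obtain ⟨hle, hstrict⟩ := section_split E H ψ hψ
  set R := H.map (QuotientGroup.mk' E) with hRdef
  set D := E.subgroupOf H with hDdef
  set P := Nat.card (D.map ψ) with hPdef
  have hidx : E.index ≤ 8 := by rcases hR with h | h <;> omega
  have hR8 : Nat.card R ≤ 8 := le_trans (Subgroup.card_le_card_group _) (by rw [← Subgroup.index_eq_card]; exact hidx)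
  have hmap := card_map_mul ψ D
  have hD16 : Nat.card D ≤ 16 := by
    rw [← hE16]
    exact Nat.card_le_card_of_injective (fun x : D => (⟨x.1.1, x.2⟩ : E)) fun x y e =>
      Subtype.ext (Subtype.ext (congrArg (fun w : E => w.1) e))
  have hPD : P ≤ Nat.card D := Nat.le_of_dvd Nat.card_pos ⟨_, hmap.symm⟩
  obtain ⟨k, hk⟩ := two_pow (Q := D.map ψ) fun q => Subtype.ext (hQ q.1)
  by_cases hHE : H ≤ E
  · refine hle.trans (le_trans (Nat.mul_le_mul (le_of_eq (?_ : Nat.card R = 1)) (hPD.trans hD16)) (one_mul 16).le)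
    rw [Subgroup.card_eq_one, hRdef, Subgroup.map_eq_bot_iff, QuotientGroup.ker_mk']
    exact hHE
  obtain ⟨h0, hh0, hh0E⟩ := Set.not_subset.1 hHE
  have hP8 : P ≤ 8 := by
    by_contra hlt
    push Not at hlt
    have h16 : P = 16 := by
      have : P ≤ 16 := hPD.trans hD16
      have hk' : P = 2 ^ k := hk
      have : k ≤ 4 := by
        by_contra hk4; push Not at hk4
        have := Nat.pow_le_pow_right (show 0 < 2 by norm_num) hk4
        omega
      interval_cases k <;> omega
    have hinj : Nat.card (ψ.ker ⊓ D : Subgroup H) = 1 := by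
      have := Nat.card_pos (α := (ψ.ker ⊓ D : Subgroup H))
      rw [show Nat.card (D.map ψ) = 16 from h16] at hmap
      omega
    have hall : ∀ e ∈ E, e ∈ H := by
      intro e he
      have hD : Nat.card D = 16 := by omega
      have hbij : Function.Bijective (fun x : D => (⟨x.1.1, x.2⟩ : E)) :=
        (Nat.bijective_iff_injective_and_card _).2 ⟨fun x y e' =>
          Subtype.ext (Subtype.ext (congrArg (fun w : E => w.1) e')), by rw [hD, hE16]⟩
      obtain ⟨x, hx⟩ := hbij.2 ⟨e, he⟩
      have : x.1.1 = e := congrArg (fun w : E => w.1) hx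
      exact this ▸ x.1.2
    refine hh0E (hK h0 fun e he => ?_)
    have hm : (⟨h0, hh0⟩ : H)⁻¹ * (⟨e, hall e he⟩ : H)⁻¹ * ⟨h0, hh0⟩ * ⟨e, hall e he⟩ ∈ ψ.ker ⊓ D :=
      ⟨comm_mem_ker ψ hQ _ _, Subgroup.mem_subgroupOf.2 (E.mul_mem (by
        simpa using (inferInstance : E.Normal).conj_mem _ (E.inv_mem he) h0⁻¹) he)⟩
    rw [Subgroup.eq_bot_of_card_eq _ hinj, Subgroup.mem_bot] at hm
    have hm' : h0⁻¹ * e⁻¹ * h0 * e = 1 := congrArg Subtype.val hm
    calc e * h0 = e * h0 * (h0⁻¹ * e⁻¹ * h0 * e) := by rw [hm', mul_one]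
      _ = h0 * e := by group
  by_contra hcon
  push Not at hcon
  have hR4 : 4 ≤ Nat.card R := by
    by_contra hlt
    have hkR : Nat.card R ≤ 2 := by
      haveI : Fact (Nat.Prime 2) := ⟨Nat.prime_two⟩
      obtain ⟨j, hj⟩ := (((h2.to_quotient E)).to_subgroup R).exists_card_eq
      have : j < 2 := by
        by_contra hj2; push Not at hj2
        have := Nat.pow_le_pow_right (show 0 < 2 by norm_num) hj2
        omega
      interval_cases j <;> omega
    have := Nat.mul_le_mul hkR hP8
    omega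
  haveI hRn : R.Normal := by
    have h := R.card_mul_index
    rw [← Subgroup.index_eq_card] at h
    have hle2 : R.index ≤ 2 := by nlinarith
    have hpos : 0 < R.index := Nat.pos_of_ne_zero Subgroup.index_ne_zero_of_finite
    rcases (show R.index = 1 ∨ R.index = 2 by omega) with h1 | h1
    · rw [Subgroup.index_eq_one.1 h1]; infer_instance
    · exact Subgroup.normal_of_index_eq_two h1
  set L := R.comap (QuotientGroup.mk' E) with hL
  have hEL : E < L := lt_of_le_of_ne (fun e he => by
    rw [hL, Subgroup.mem_comap, (show QuotientGroup.mk' E e = 1 from (QuotientGroup.eq_one_iff e).2 he)]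
    exact R.one_mem) fun e => hh0E (by rw [e, hL]; exact Subgroup.mem_map_of_mem _ hh0)
  have haL : a ∈ L := by
    rcases hR with ⟨h4, -, -⟩ | ⟨-, hc⟩
    · have : R = ⊤ := Subgroup.eq_top_of_le_card _ (by rw [← Subgroup.index_eq_card]; omega)
      rw [hL, this, Subgroup.comap_top]; trivial
    · obtain ⟨c, hcL, hcE, -, hcc⟩ := exists_central_mod h2 E L hEL
      have hac := (hc c hcc).resolve_left hcE
      rw [show a = a * c * c⁻¹ by group]
      exact L.mul_mem (hEL.le hac) (L.inv_mem hcL)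
  obtain ⟨h, hh, hha⟩ := haL
  have hha' : h⁻¹ * a ∈ E := QuotientGroup.eq.1 hha
  have hact : ∀ e ∈ E, a * e * a = h * e * h⁻¹ := fun e he => by
    calc a * e * a = h * ((h⁻¹ * a) * e * (h⁻¹ * a)⁻¹) * h⁻¹ * (a * a) := by group
      _ = h * e * h⁻¹ := by rw [ha, mul_one, hE.comm hha' he, mul_inv_cancel_right]
  let D' : Subgroup S := E ⊓ H
  have hD'inv : ∀ e ∈ D', a * e * a ∈ D' := fun e he => by
    rw [hact e he.1]
    exact ⟨(inferInstance : E.Normal).conj_mem _ he.1 h, H.mul_mem (H.mul_mem hh he.2) (H.inv_mem hh)⟩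
  obtain ⟨C, hC, -, I, hIC, hI, hcard⟩ := card_le_fixed_sq (E := D') ⟨fun x hx y hy => hE.comm hx.1 hy.1,
    fun x hx => hE.2 x hx.1⟩ ha hD'inv
  have hC4 := hF C fun e he => ⟨((hC e).1 he).1.1, ((hC e).1 he).2⟩
  have hID : Nat.card I ≤ Nat.card (ψ.ker ⊓ D : Subgroup H) := by
    refine Nat.card_le_card_of_injective (fun x : I => (⟨⟨x.1, (((hC _).1 (hIC x.2)).1).2⟩, ?_,
      Subgroup.mem_subgroupOf.2 (((hC _).1 (hIC x.2)).1).1⟩ : (ψ.ker ⊓ D : Subgroup H))) fun x y e =>
      Subtype.ext (congrArg (fun w : (ψ.ker ⊓ D : Subgroup H) => w.1.1) e)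
    obtain ⟨e, he, hex⟩ := (hI x.1).1 x.2
    have := comm_mem_ker ψ hQ (⟨e, he.2⟩ : H) (⟨h, hh⟩ : H)⁻¹
    refine (congrArg (· ∈ ψ.ker) (Subtype.ext ?_)).mpr this
    show x.1 = e⁻¹ * (h⁻¹)⁻¹ * e * h⁻¹
    rw [← hex, com, hact e he.1]; group
  have hDD' : Nat.card D = Nat.card D' := Nat.card_congr
    ⟨fun x => ⟨x.1.1, x.2, x.1.2⟩, fun x => ⟨⟨x.1, x.2.2⟩, x.2.1⟩, fun _ => rfl, fun _ => rfl⟩
  have hP4 : P ≤ 4 := by
    have hpos := Nat.card_pos (α := I)
    have h1 : Nat.card I * Nat.card C = P * Nat.card (ψ.ker ⊓ D : Subgroup H) := by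
      rw [← hcard, ← hDD', hPdef, hmap]
    have h2 := Nat.mul_le_mul_left P hID
    have h3 := Nat.mul_le_mul_left (Nat.card I) hC4
    refine Nat.le_of_mul_le_mul_right (?_ : P * Nat.card I ≤ 4 * Nat.card I) hpos
    linarith
  have hR5 : 4 < Nat.card R := by
    by_contra hlt
    have := Nat.mul_le_mul (Nat.le_of_not_lt hlt) hP4
    omega
  have hne : ∃ x ∈ ψ.ker, x.1 ∉ E := by
    rcases hR with ⟨h4, -, -⟩ | ⟨-, hc⟩
    · have := Subgroup.card_le_card_group R
      rw [← Subgroup.index_eq_card] at this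
      omega
    by_contra hno
    push Not at hno
    have htop : R = ⊤ := by
      haveI : Fact (Nat.Prime 2) := ⟨Nat.prime_two⟩
      obtain ⟨j, hj⟩ := (((h2.to_quotient E)).to_subgroup R).exists_card_eq
      have hR8' : Nat.card R = 8 := by
        have : j ≤ 3 := by
          by_contra hj3; push Not at hj3
          have := Nat.pow_le_pow_right (show 0 < 2 by norm_num) hj3
          omega
        interval_cases j <;> omega
      exact Subgroup.eq_top_of_le_card _ (by rw [← Subgroup.index_eq_card]; omega)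
    have hall : ∀ s : S, ∃ x : H, s⁻¹ * x.1 ∈ E := fun s => by
      obtain ⟨x, hx, e⟩ : QuotientGroup.mk' E s ∈ H.map (QuotientGroup.mk' E) := by
        rw [← hRdef, htop]; trivial
      exact ⟨⟨x, hx⟩, QuotientGroup.eq.1 e.symm⟩
    have hcentral : ∀ c s : S, c⁻¹ * (s * c * s⁻¹) ∈ E := fun c s => by
      obtain ⟨x, hx⟩ := hall c
      obtain ⟨y, hy⟩ := hall s
      have h1 := hno _ (comm_mem_ker ψ hQ x y⁻¹)
      rw [← QuotientGroup.eq_one_iff] at h1 hx hy ⊢
      simp only [Subgroup.coe_mul, Subgroup.coe_inv, QuotientGroup.mk_mul, QuotientGroup.mk_inv, inv_inv,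
        inv_mul_eq_one] at h1 hx hy ⊢
      rw [← hx, ← hy] at h1
      simpa [mul_assoc, inv_mul_eq_one] using h1
    have hidx2 : Nat.card R ≤ 2 := by
      rw [htop, Nat.card_congr Subgroup.topEquiv.toEquiv]
      refine (Nat.card_le_card_of_surjective (fun b : Bool => if b then QuotientGroup.mk' E a else 1)
        fun q => ?_).trans (by simp)
      obtain ⟨c, rfl⟩ := QuotientGroup.mk'_surjective E q
      rcases hc c (hcentral c) with hcE | hcE
      · exact ⟨false, ((QuotientGroup.eq_one_iff c).2 hcE).symm⟩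
      · exact ⟨true, QuotientGroup.eq.2 (by rwa [invol_inv ha])⟩
    omega
  have h2Q := (hstrict hne).trans (Nat.mul_le_mul hR8 hP4)
  omega

/-- The bound, given two commuting involutions, one central modulo `E`, with two common fixed points. -/
theorem bound_of_pair (h2 : IsPGroup 2 S) {c b z : S} (hc : c * c = 1) (hb : b * b = 1) (hcb : c * b = b * c)
    (hz : z ∈ E) (hz1 : z ≠ 1) (hzc : ∀ s : S, s * z * s⁻¹ = z)
    (hfix : ∀ e ∈ E, c * e * c = e → b * e * b = e → e = 1 ∨ e = z)
    (hcen : ∀ s : S, c⁻¹ * (s * c * s⁻¹) ∈ E)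
    (hC : ∀ x, com c x ∈ E → com b x ∈ E → x ∈ E ∨ c * x ∈ E ∨ b * x ∈ E ∨ c * b * x ∈ E)
    (H : Subgroup S) {Q : Type*} [Group Q] (ψ : H →* Q) (hψ : Function.Surjective ψ) (hQ : ∀ q : Q, q ^ 2 = 1) :
    Nat.card Q ≤ 16 := by
  classical
  have hEn : E.Normal := inferInstance
  have hEc : ∀ {a : S}, a * a = 1 → ∀ e ∈ E, a * e * a ∈ E := fun {a} ha e he => by
    have := hEn.conj_mem e he a
    rwa [invol_inv ha] at this
  obtain ⟨F, hF, hFcom, I, hIF, hI, hcard⟩ := card_le_fixed_sq hE hc (hEc hc)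
  have hFE : ∀ e ∈ F, e ∈ E := fun e he => ((hF e).1 he).1
  have hFb : ∀ e ∈ F, b * e * b ∈ F := fun e he => by
    refine (hF _).2 ⟨hEc hb e (hFE e he), ?_⟩
    calc c * (b * e * b) * c = c * b * e * (c * b)⁻¹ := by
          rw [mul_inv_rev, invol_inv hb, invol_inv hc]; group
      _ = b * (c * e * c) * b := by rw [hcb, mul_inv_rev, invol_inv hb, invol_inv hc]; group
      _ = b * e * b := by rw [((hF e).1 he).2]
  obtain ⟨C', hC', -, I', hI'C, hI', hcard'⟩ := card_le_fixed_sq (E := F) ⟨fun x hx y hy => hE.comm (hFE x hx) (hFE y hy),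
    fun x hx => hE.2 x (hFE x hx)⟩ hb hFb
  have hC2 : Nat.card C' ≤ 2 := card_le_two fun x hx =>
    hfix x (hFE x ((hC' x).1 hx).1) ((hF x).1 ((hC' x).1 hx).1).2 ((hC' x).1 hx).2
  have hI2 := Subgroup.card_le_of_le hI'C
  have hF4 : Nat.card F = 4 := by
    have h1 : Nat.card F ≤ 4 := by rw [hcard']; exact le_trans (Nat.mul_le_mul (hI2.trans hC2) hC2) le_rfl
    have h2 := Nat.mul_le_mul_right (Nat.card F) (Subgroup.card_le_of_le hIF)
    rw [← hcard, hE16] at h2
    interval_cases (Nat.card F) <;> omega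
  have hIeq : I = F := Subgroup.eq_of_le_of_card_ge hIF (by rw [hE16, hF4] at hcard; omega)
  have hFbound : ∀ C : Subgroup S, (∀ e ∈ C, e ∈ E ∧ c * e * c = e) → Nat.card C ≤ 4 := fun C h =>
    hF4 ▸ Subgroup.card_le_of_le fun e he => (hF e).2 (h e he)
  have hFn : F.Normal := ⟨fun e he s => by
    refine (hF _).2 ⟨hEn.conj_mem e (hFE e he) s, ?_⟩
    have hk := hcen s
    set k := c⁻¹ * (s * c * s⁻¹) with hkdef
    have hck : s * c * s⁻¹ = c * k := by rw [hkdef, mul_inv_cancel_left]
    have hcs : c = s * c * s⁻¹ * k⁻¹ := by rw [hck, mul_inv_cancel_right]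
    calc c * (s * e * s⁻¹) * c = c * (s * e * s⁻¹) * c⁻¹ := by rw [invol_inv hc]
      _ = s * c * s⁻¹ * (k⁻¹ * (s * e * s⁻¹) * k) * (s * c * s⁻¹)⁻¹ := by
          conv_lhs => rw [hcs]
          group
      _ = s * c * s⁻¹ * (s * e * s⁻¹) * (s * c * s⁻¹)⁻¹ := by
          rw [hE.comm (E.inv_mem hk) (hEn.conj_mem e (hFE e he) s), inv_mul_cancel_right]
      _ = s * (c * e * c⁻¹) * s⁻¹ := by group
      _ = s * e * s⁻¹ := by rw [invol_inv hc, ((hF e).1 he).2]⟩
  have hzF : z ∈ F := (hF z).2 ⟨hz, by have := hzc c; rwa [invol_inv hc] at this⟩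
  obtain ⟨p, hp, hpz, hp1⟩ : ∃ p ∈ F, p ≠ z ∧ p ≠ 1 := by
    by_contra hcon
    push Not at hcon
    have := card_le_two (C := F) (z := z) fun x hx => by
      by_cases h : x = z
      · exact Or.inr h
      · exact Or.inl (hcon x hx h)
    omega
  have hzp1 : z * p ≠ 1 := fun e => hpz (by rw [← hE.inv_eq hz]; exact eq_inv_of_mul_eq_one_right e)
  set X := Subgroup.centralizer (F : Set S)
  haveI := hFn
  have hX : X.Normal := inferInstance
  have hpcases : ∀ s : S, s * p * s⁻¹ = p ∨ s * p * s⁻¹ = z * p := fun s => by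
    rcases four_cases hF4.le hzF hp hz1 hp1 hpz.symm hzp1 (hFn.conj_mem p hp s) with e | e | e | e
    · exact absurd (conj_eq_one_iff.1 e) hp1
    · exact absurd (mul_left_cancel (mul_right_cancel (e.trans (hzc s).symm))) hpz
    · exact Or.inl e
    · exact Or.inr e
  have hXiff : ∀ s : S, s ∈ X ↔ s * p * s⁻¹ = p := fun s => by
    refine ⟨fun h => by rw [← Subgroup.mem_centralizer_iff.1 h p hp, mul_inv_cancel_right], fun h => ?_⟩
    rw [Subgroup.mem_centralizer_iff]
    intro u hu
    have : s * u * s⁻¹ = u := by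
      rcases four_cases hF4.le hzF hp hz1 hp1 hpz.symm hzp1 hu with e | e | e | e <;> rw [e]
      · group
      · exact hzc s
      · exact h
      · rw [← conj_mul, hzc, h]
    exact (mul_inv_eq_iff_eq_mul.1 this).symm
  have hXidx : X.index ≤ 2 := by
    let g : S ⧸ X → Bool := Quotient.lift (fun s => decide (s * p * s⁻¹ = p)) fun s t hst => by
      have hk := (hXiff _).1 (QuotientGroup.leftRel_apply.1 hst)
      have : t * p * t⁻¹ = s * p * s⁻¹ := by
        calc t * p * t⁻¹ = s * ((s⁻¹ * t) * p * (s⁻¹ * t)⁻¹) * s⁻¹ := by group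
          _ = _ := by rw [hk]
      simp only [this]
    rw [Subgroup.index_eq_card]
    refine (Nat.card_le_card_of_injective g fun u v => ?_).trans (by simp)
    induction u using Quotient.inductionOn with
    | h s => induction v using Quotient.inductionOn with
      | h t =>
        intro e
        have e' : decide (s * p * s⁻¹ = p) = decide (t * p * t⁻¹ = p) := e
        rw [decide_eq_decide] at e'
        have : s * p * s⁻¹ = t * p * t⁻¹ := by
          rcases hpcases s with a1 | a1 <;> rcases hpcases t with b1 | b1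
          · rw [a1, b1]
          · rw [a1, e'.1 a1]
          · rw [b1, e'.2 b1]
          · rw [a1, b1]
        refine Quotient.sound (QuotientGroup.leftRel_apply.2 ((hXiff _).2 ?_))
        calc s⁻¹ * t * p * (s⁻¹ * t)⁻¹ = s⁻¹ * (t * p * t⁻¹) * s := by group
          _ = p := by rw [← this]; group
  have hEX : E ≤ X := fun e he => Subgroup.mem_centralizer_iff.2 fun u hu => hE.comm (hFE u hu) he
  have hsq : ∀ x ∈ X, x * x ∈ E := fun x hx => hK _ fun e he => by
    have hfixX : ∀ u ∈ F, x * u * x⁻¹ = u := fun u hu => by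
      rw [← Subgroup.mem_centralizer_iff.1 hx u hu, mul_inv_cancel_right]
    set d := x * e * x⁻¹ * e⁻¹ with hd
    have hex := hEn.conj_mem e he x
    have hdE : d ∈ E := E.mul_mem hex (E.inv_mem he)
    have hdF : d ∈ F := by
      refine (hF _).2 ⟨hdE, ?_⟩
      have h1 := hfixX _ (hFcom e he)
      set k := x⁻¹ * (c * x * c) with hk
      have hkE : k ∈ E := com_of_central hc (hcen x)
      have hcx : c * x * c = x * k := by rw [hk, mul_inv_cancel_left]
      have hcx' : c * x⁻¹ * c = k⁻¹ * x⁻¹ := by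
        rw [← mul_inv_rev, ← hcx, mul_inv_rev, mul_inv_rev, invol_inv hc, mul_assoc]
      have hbb : ∀ y : S, c * (c * y) = y := fun y => by rw [← mul_assoc, hc, one_mul]
      calc c * d * c = (c * x * c) * (c * e * c) * (c * x⁻¹ * c) * (c * e⁻¹ * c) := by
            simp only [hd, mul_assoc, hbb]
        _ = x * (k * (c * e * c) * k⁻¹) * x⁻¹ * (c * e⁻¹ * c) := by rw [hcx, hcx']; group
        _ = x * (c * e * c) * x⁻¹ * (c * e⁻¹ * c) := by
            rw [hE.comm hkE (hEc hc e he), mul_inv_cancel_right]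
        _ = x * e * x⁻¹ * (x * com c e * x⁻¹) * (c * e⁻¹ * c) := by rw [com]; group
        _ = x * e * x⁻¹ * (e⁻¹ * (c * e * c)) * (c * e⁻¹ * c) := by rw [h1, com]
        _ = d := by rw [hd]; simp only [mul_assoc, hbb, mul_inv_cancel_left, hc, mul_one]
    have hxe : x * e * x⁻¹ = d * e := by rw [hd, inv_mul_cancel_right]
    refine (mul_inv_eq_iff_eq_mul.1 (?_ : x * x * e * (x * x)⁻¹ = e)).symm
    calc x * x * e * (x * x)⁻¹ = x * (x * e * x⁻¹) * x⁻¹ := by group
      _ = x * (d * e) * x⁻¹ := by rw [hxe]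
      _ = (x * d * x⁻¹) * (x * e * x⁻¹) := by group
      _ = e := by rw [hfixX d hdF, hxe, ← mul_assoc, hE.mul_self hdE, one_mul]
  set π := QuotientGroup.mk' E
  have hpi : ∀ x : S, π x = 1 ↔ x ∈ E := fun x => QuotientGroup.eq_one_iff x
  have hX' : Elem (X.map π) := by
    have hsq' : ∀ q ∈ X.map π, q ^ 2 = 1 := by
      rintro _ ⟨x, hx, rfl⟩
      rw [pow_two, ← map_mul, hpi]; exact hsq x hx
    exact ⟨fun q hq r hr => congrArg Subtype.val (mul_self_of_exp_two (Q := X.map π)
      (fun w => Subtype.ext (hsq' w.1 w.2)) ⟨q, hq⟩ ⟨r, hr⟩), hsq'⟩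
  have hb' : π b * π b = 1 := by rw [← map_mul, hb, map_one]
  obtain ⟨C2, hC2', -, I2, hI2C, -, hcard2⟩ := card_le_fixed_sq hX' hb' (by
    rintro _ ⟨x, hx, rfl⟩
    rw [← map_mul, ← map_mul]
    have := hX.conj_mem x hx b
    rw [invol_inv hb] at this
    exact Subgroup.mem_map_of_mem _ this)
  have hbX : b ∉ X := fun h => by
    have h1 := (hXiff b).1 h
    rw [invol_inv hb] at h1
    rcases hfix p (hFE p hp) ((hF p).1 hp).2 h1 with e | e
    exacts [hp1 e, hpz e]
  have hcX : c ∈ X := (hXiff c).2 (by rw [invol_inv hc]; exact ((hF p).1 hp).2)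
  have hC2le : Nat.card C2 ≤ 2 := card_le_two (z := π c) fun q hq => by
    obtain ⟨⟨x, hx, rfl⟩, hfx⟩ := (hC2' q).1 hq
    have hbx : com b x ∈ E := by
      rw [← hpi, com, map_mul, map_inv, map_mul, map_mul, hfx, inv_mul_cancel]
    have hcx : com c x ∈ E := by
      rw [← hpi, com, map_mul, map_inv, map_mul, map_mul]
      have := (hpi _).2 (hcen x)
      rw [map_mul, map_inv, map_mul, map_mul, map_inv, inv_mul_eq_one] at this
      have hcomm : π c * π x = π x * π c := by
        conv_lhs => rw [this]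
        group
      rw [hcomm, mul_assoc (π x), ← map_mul π c, hc, map_one, mul_one, inv_mul_cancel]
    rcases hC x hcx hbx with h | h | h | h
    · exact Or.inl ((hpi x).2 h)
    · refine Or.inr ?_
      have := (hpi _).2 h
      rw [map_mul] at this
      rw [eq_inv_of_mul_eq_one_right this, ← map_inv, invol_inv hc]
    · refine absurd ?_ hbX
      rw [show b = b * x * x⁻¹ by group]; exact X.mul_mem (hEX h) (X.inv_mem hx)
    · refine absurd ?_ hbX
      rw [show b = c⁻¹ * (c * b * x * x⁻¹) by group]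
      exact X.mul_mem (X.inv_mem hcX) (X.mul_mem (hEX h) (X.inv_mem hx))
  have hXcard : Nat.card (X.map π) ≤ 4 := by
    rw [hcard2]; exact le_trans (Nat.mul_le_mul ((Subgroup.card_le_of_le hI2C).trans hC2le) hC2le) le_rfl
  have hidx8 : E.index ≤ 8 := by
    have h := (X.map π).card_mul_index
    rw [Subgroup.index_map_eq _ (QuotientGroup.mk'_surjective E) (by rw [QuotientGroup.ker_mk']; exact hEX),
      ← Subgroup.index_eq_card] at h
    rw [← h]; exact le_trans (Nat.mul_le_mul hXcard hXidx) le_rfl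
  refine bound_of_central hE hE16 hK h2 hc hFbound ?_ H ψ hψ hQ
  have hcE : c ∉ E := fun h => by
    have := Subgroup.card_le_of_le (show E ≤ F from fun e he => (hF e).2 ⟨he, by
      rw [hE.comm h he, mul_assoc, hc, mul_one]⟩)
    omega
  by_cases h4 : E.index ≤ 4
  · exact Or.inl ⟨h4, hcen, hcE⟩
  refine Or.inr ⟨hidx8, fun d hd => ?_⟩
  have toCom : ∀ {a : S}, a * a = 1 → ∀ x, x⁻¹ * (a * x * a⁻¹) ∈ E → com a x ∈ E := fun {a} ha x hx => by
    rwa [invol_inv ha] at hx
  rcases hC d (toCom hc d (hd c)) (toCom hb d (hd b)) with h | h | h | h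
  · exact Or.inl h
  · exact Or.inr h
  all_goals
    exfalso
    apply h4
    have hbc : ∀ s : S, com b s ∈ E := by
      intro s
      rw [← hpi, com, map_mul, map_inv, map_mul, map_mul]
      have hd' : ∀ u : S, π d * π u = π u * π d := fun u => by
        have := (hpi _).2 (hd u)
        rw [map_mul, map_inv, map_mul, map_mul, map_inv, inv_mul_eq_one] at this
        conv_lhs => rw [this]
        group
      have hc' : ∀ u : S, π c * π u = π u * π c := fun u => by
        have := (hpi _).2 (hcen u)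
        rw [map_mul, map_inv, map_mul, map_mul, map_inv, inv_mul_eq_one] at this
        conv_lhs => rw [this]
        group
      have h' := (hpi _).2 h
      simp only [map_mul] at h'
      have hcm : Commute (π b) (π s) := by
        first
          | (have e : π b = (π d)⁻¹ := eq_inv_of_mul_eq_one_left h'
             rw [e]; exact (show Commute (π d) (π s) from hd' s).inv_left)
          | (have e : π b = (π c)⁻¹ * (π d)⁻¹ := by
               rw [← eq_inv_of_mul_eq_one_left h', inv_mul_cancel_left]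
             rw [e]
             exact (show Commute (π c) (π s) from hc' s).inv_left.mul_left
               (show Commute (π d) (π s) from hd' s).inv_left)
      rw [hcm.eq, mul_assoc (π s), hb', mul_one, inv_mul_cancel]
    rw [Subgroup.index_eq_card]
    refine (Nat.card_le_card_of_surjective (fun w : Bool × Bool =>
      (if w.1 then π c else 1) * (if w.2 then π b else 1)) fun q => ?_).trans (by simp)
    obtain ⟨x, rfl⟩ := QuotientGroup.mk'_surjective E q
    have hinv : ∀ {u v : S}, u * v ∈ E → π v = (π u)⁻¹ := fun {u v} huv =>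
      eq_inv_of_mul_eq_one_right (by rw [← map_mul]; exact (hpi _).2 huv)
    rcases hC x (com_of_central hc (hcen x)) (hbc x) with g | g | g | g
    · exact ⟨(false, false), by rw [(hpi x).2 g]; exact one_mul 1⟩
    · exact ⟨(true, false), by rw [hinv g, ← map_inv, invol_inv hc]; exact mul_one _⟩
    · exact ⟨(false, true), by rw [hinv g, ← map_inv, invol_inv hb]; exact one_mul _⟩
    · exact ⟨(true, true), by
        rw [hinv g, ← map_inv, mul_inv_rev, invol_inv hc, invol_inv hb, ← hcb, map_mul]; rfl⟩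

end

end Cfsg.Agent.TwoGroups.SelfCentralEight
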